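import Cfsg.Agent.Lib.BrauerPairs.Maximal
import Cfsg.Agent.Lib.Block.CentralDefect
import Cfsg.Agent.Lib.Block.PParts
import Cfsg.Agent.Lib.Block.Osima
import Mathlib.GroupTheory.GroupAction.Quotient

/-!
# Values on the sections of an abelian defect group
-/

set_option autoImplicit false
set_option linter.unusedSectionVars false
set_option linter.style.haveILetI false

namespace Cfsg.Agent.Lib.Block

open Cfsg Cfsg.Agent.Lib.BrauerPairs

universe u

variable {p : ℕ} {M : Ideal AlgInt} [M.IsPrime] {G : Type u} [Group G] [Finite G]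

/-- Two `p`-subgroups of `K` of full order are conjugate in `K`. -/
theorem exists_conj_of_full [Fact p.Prime] {K Q R : Subgroup G} (hQK : Q ≤ K) (hRK : R ≤ K)
    (hQ : Nat.card Q = p ^ (Nat.card K).factorization p)
    (hR : Nat.card R = p ^ (Nat.card K).factorization p) :
    ∃ k ∈ K, ∀ x ∈ Q, k * x * k⁻¹ ∈ R := by
  let SQ : Sylow p K := Sylow.ofCard (Q.subgroupOf K)
    (by rw [Nat.card_congr (Subgroup.subgroupOfEquivOfLe hQK).toEquiv, hQ])
  let SR : Sylow p K := Sylow.ofCard (R.subgroupOf K)
    (by rw [Nat.card_congr (Subgroup.subgroupOfEquivOfLe hRK).toEquiv, hR])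
  obtain ⟨k, hk⟩ := MulAction.exists_smul_eq K SQ SR
  refine ⟨k, k.2, fun x hx => ?_⟩
  have h1 : (MulAut.conj k) (⟨x, hQK hx⟩ : K) ∈ (SR : Subgroup K) := by
    rw [← hk]
    exact Subgroup.smul_mem_pointwise_smul _ (MulAut.conj k) _ (show (⟨x, hQK hx⟩ : K) ∈ (SQ : Subgroup K) from hx)
  exact h1

/-- A conjugate in `C(P)` of a regular element with Sylow centralizer `P` is a conjugate under
the normalizer of `P`. -/
theorem exists_normalizer_conj [Fact p.Prime] {P : Subgroup G} {g s : G}
    (hgP : g ∈ Subgroup.centralizer (P : Set G)) (hsP : s ∈ Subgroup.centralizer (P : Set G))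
    (hcard : Nat.card P = p ^ (Nat.card (Subgroup.centralizer ({g} : Set G))).factorization p)
    (h : IsConj g s) :
    ∃ n ∈ Subgroup.normalizer (P : Set G), n * g * n⁻¹ = s := by
  obtain ⟨c, hc⟩ := isConj_iff.1 h
  set K := Subgroup.centralizer ({s} : Set G)
  have hK : K = (Subgroup.centralizer ({g} : Set G)).map (MulAut.conj c).toMonoidHom := by
    ext y
    constructor
    · intro hy
      refine ⟨c⁻¹ * y * c, Subgroup.mem_centralizer_singleton_iff.2 ?_, by simp [mul_assoc]⟩
      have h1 := Subgroup.mem_centralizer_singleton_iff.1 hy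
      rw [← hc] at h1
      calc c⁻¹ * y * c * g = c⁻¹ * (y * (c * g * c⁻¹)) * c := by group
        _ = c⁻¹ * (c * g * c⁻¹ * y) * c := by rw [h1]
        _ = g * (c⁻¹ * y * c) := by group
    · rintro ⟨y, hy, rfl⟩
      refine Subgroup.mem_centralizer_singleton_iff.2 ?_
      have h1 := Subgroup.mem_centralizer_singleton_iff.1 hy
      show c * y * c⁻¹ * s = s * (c * y * c⁻¹)
      rw [← hc]
      calc c * y * c⁻¹ * (c * g * c⁻¹) = c * (y * g) * c⁻¹ := by group
        _ = c * (g * y) * c⁻¹ := by rw [h1]
        _ = c * g * c⁻¹ * (c * y * c⁻¹) := by group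
  have hcardK : Nat.card K = Nat.card (Subgroup.centralizer ({g} : Set G)) := by
    rw [hK, Subgroup.card_map_of_injective (MulAut.conj c).injective]
  set Q := P.map (MulAut.conj c).toMonoidHom
  have hQK : Q ≤ K := by
    rw [hK]
    exact Subgroup.map_mono (le_centralizer_singleton_iff.2 hgP)
  obtain ⟨k, hk, hkQ⟩ := exists_conj_of_full hQK (le_centralizer_singleton_iff.2 hsP)
    (by rw [Subgroup.card_map_of_injective (MulAut.conj c).injective, hcardK, hcard])
    (by rw [hcardK, hcard])
  refine ⟨k * c, ?_, ?_⟩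
  · rw [Subgroup.mem_normalizer_iff_map_conj_eq]
    refine map_eq_of_le_of_card_le ?_ le_rfl
    rintro _ ⟨x, hx, rfl⟩
    have := hkQ _ ⟨x, hx, rfl⟩
    simpa [mul_assoc] using this
  · rw [show k * c * g * (k * c)⁻¹ = k * (c * g * c⁻¹) * k⁻¹ by group, hc,
      Subgroup.mem_centralizer_singleton_iff.1 hk, mul_inv_cancel_right]

theorem isClassCoeff_single_of_center {k : Type*} [CommRing k] {H : Type u} [Group H] [Finite H]
    {w : H} (hw : w ∈ Subgroup.center H) : IsClassCoeff (MonoidAlgebra.single w (1 : k)) := by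
  classical
  intro c x
  have e : c * w * c⁻¹ = w := by rw [Subgroup.mem_center_iff.1 hw c, mul_inv_cancel_right]
  rw [MonoidAlgebra.coeff_single, Finsupp.single_apply, Finsupp.single_apply]
  refine if_congr ⟨fun h => ?_, fun h => ?_⟩ rfl rfl
  · rw [← e] at h
    exact mul_left_cancel (mul_right_cancel h)
  · rw [← h, e]

theorem lam_single_central (hM : IsPModular p M) {H : Type u} [Group H] [Finite H]
    (ξ : IrrCharacter H) {v : H} (hv : v ∈ Subgroup.center H) {k : ℕ} (hk : v ^ p ^ k = 1) :
    lam M ξ (MonoidAlgebra.single v (1 : ResField M)) = 1 := by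
  haveI : Fact p.Prime := ⟨hM.1⟩
  haveI := resField_charP (M := M) hM
  have hc : ∀ w : H, w ∈ Subgroup.center H →
      IsClassCoeff (MonoidAlgebra.single w (1 : ResField M)) := fun w hw =>
    isClassCoeff_single_of_center hw
  have hpow : ∀ n : ℕ, lam M ξ (MonoidAlgebra.single (v ^ n) (1 : ResField M)) =
      lam M ξ (MonoidAlgebra.single v (1 : ResField M)) ^ n := by
    intro n
    induction n with
    | zero => rw [pow_zero, pow_zero, ← MonoidAlgebra.one_def, lam_one]
    | succ n ih =>
      rw [pow_succ, pow_succ, ← ih, ← lam_mul ξ (hc _ (pow_mem hv n)) (hc v hv),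
        MonoidAlgebra.single_mul_single, one_mul]
  have h := hpow (p ^ k)
  rw [hk, ← MonoidAlgebra.one_def, lam_one] at h
  set t := lam M ξ (MonoidAlgebra.single v (1 : ResField M))
  have h2 : (t - 1) ^ p ^ k = 0 := by rw [sub_pow_char_pow, ← h, one_pow, sub_self]
  exact sub_eq_zero.1 (eq_zero_of_pow_eq_zero h2)

/-- The central characters of a block with abelian defect group do not vanish on the products of
its defect elements with a defect class. -/
theorem centralChar_mul_ne_zero (hM : IsPModular p M) {B : Set (IrrCharacter G)}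
    (hB : IsPBlock M B) {P : Subgroup G} (hP : IsDefectGroup p M B P)
    (hab : ∀ x ∈ P, ∀ y ∈ P, x * y = y * x) {g : G} (hg : IsDefectClass M B g)
    (hgP : g ∈ Subgroup.centralizer (P : Set G)) {u : G} (hu : u ∈ P) {χ : IrrCharacter G}
    (hχ : χ ∈ B) : redC M (centralChar (χ : G → ℂ) (u * g)) ≠ 0 := by
  classical
  haveI : Fact p.Prime := ⟨hM.1⟩
  haveI := resField_charP (M := M) hM
  haveI := Fintype.ofFinite G
  obtain ⟨hPp, hPc, -⟩ := IsDefectGroup.props hM hB hP
  obtain ⟨hgfac, hgreg, -⟩ := defectClass_facts hM hB hg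
  have hcard : Nat.card P =
      p ^ (Nat.card (Subgroup.centralizer ({g} : Set G))).factorization p := by rw [hgfac, hPc]
  set C := Subgroup.centralizer (P : Set G) with hC
  haveI := Fintype.ofFinite C
  obtain ⟨f, hf⟩ := exists_pair_on_defect hM hB hP
  obtain ⟨ξ, hξ⟩ := isPBlock_nonempty hf.1.2
  have hPC : P ≤ C := fun x hx => Subgroup.mem_centralizer_iff.2 fun y hy => hab y hy x hx
  have hcentral : ∀ v : C, (v : G) ∈ P → v ∈ Subgroup.center C := fun v hv =>
    Subgroup.mem_center_iff.2 fun c => Subtype.ext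
      (Subgroup.mem_centralizer_iff.1 c.2 _ hv).symm
  -- the elements of `P` pairing with a conjugate of `g`
  set A : G → Finset G := fun s => Finset.univ.filter fun v => v ∈ P ∧ IsConj (u * g) (v * s)
    with hA
  have hpart : ∀ {v s : G}, v ∈ P → s ∈ C → ¬ p ∣ orderOf s → IsPPart p (v * s) v :=
    fun {v s} hv hs hsr => ⟨s, rfl, Subgroup.mem_centralizer_iff.1 hs v hv,
      IsPGroup.iff_orderOf.1 hPp ⟨v, hv⟩ |>.imp fun k hk => by rwa [Subgroup.orderOf_mk] at hk, hsr⟩
  have hsplit : ∀ {v s : G}, v ∈ P → s ∈ C → ¬ p ∣ orderOf s → ∀ c : G,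
      c * (u * g) * c⁻¹ = v * s → c * u * c⁻¹ = v ∧ c * g * c⁻¹ = s := by
    intro v s hv hs hsr c hc
    have h1 := hpart hv hs hsr
    have h2 : IsPPart p (v * s) (c * u * c⁻¹) := by
      obtain ⟨y, hy1, hy2, ⟨k, hk⟩, hy4⟩ := hpart hu hgP hgreg
      refine ⟨c * y * c⁻¹, ?_, ?_, ⟨k, by rwa [orderOf_conj_eq]⟩, by rwa [orderOf_conj_eq]⟩
      · rw [← hc, ← hy1]; group
      · exact (Commute.conj_iff c).2 hy2
    have h3 := IsPPart.unique h2 h1
    refine ⟨h3, ?_⟩
    have h4 : c * (u * g) * c⁻¹ = (c * u * c⁻¹) * (c * g * c⁻¹) := by group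
    rw [hc, h3] at h4
    exact (mul_left_cancel h4).symm
  have hA_inv : ∀ s, s ∈ C → IsConj g s → (A s).card = (A g).card := by
    intro s hs hgs
    obtain ⟨n, hn, rfl⟩ := exists_normalizer_conj hgP hs hcard hgs
    refine Finset.card_bij (fun v _ => n⁻¹ * v * n) (fun v hv => ?_) (fun v _ w _ h => ?_)
      (fun v hv => ?_)
    · rw [hA, Finset.mem_filter] at hv ⊢
      refine ⟨Finset.mem_univ _, (Subgroup.mem_normalizer_iff''.1 hn v).1 hv.2.1, ?_⟩
      refine hv.2.2.trans (isConj_iff.2 ⟨n⁻¹, ?_⟩)
      group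
    · simpa using h
    · rw [hA, Finset.mem_filter] at hv
      refine ⟨n * v * n⁻¹, ?_, by group⟩
      rw [hA, Finset.mem_filter]
      refine ⟨Finset.mem_univ _, (Subgroup.mem_normalizer_iff.1 hn v).1 hv.2.1, ?_⟩
      refine hv.2.2.trans (isConj_iff.2 ⟨n, ?_⟩)
      group
  -- its cardinality is prime to `p`
  set X := Subgroup.normalizer (P : Set G) ⊓ Subgroup.centralizer ({g} : Set G) with hX
  have hPg : P ≤ Subgroup.centralizer ({g} : Set G) := le_centralizer_singleton_iff.2 hgP
  have hPX : P ≤ X := le_inf Subgroup.le_normalizer hPg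
  have hAg : ¬ p ∣ (A g).card := by
    let φ : X → G := fun x => (x : G) * u * (x : G)⁻¹
    have himg : (Set.range φ) = (A g : Set G) := by
      ext v
      rw [hA, Finset.coe_filter]
      constructor
      · rintro ⟨x, rfl⟩
        refine ⟨Finset.mem_univ _, (Subgroup.mem_normalizer_iff.1 x.2.1 u).1 hu,
          isConj_iff.2 ⟨(x : G), ?_⟩⟩
        have := Subgroup.mem_centralizer_singleton_iff.1 x.2.2
        show (x : G) * (u * g) * (x : G)⁻¹ = (x : G) * u * (x : G)⁻¹ * g
        calc (x : G) * (u * g) * (x : G)⁻¹ = (x : G) * u * (x : G)⁻¹ * ((x : G) * g) * (x : G)⁻¹ := by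
              group
          _ = (x : G) * u * (x : G)⁻¹ * (g * (x : G)) * (x : G)⁻¹ := by rw [this]
          _ = _ := by group
      · rintro ⟨-, hvP, hconj⟩
        obtain ⟨c, hc⟩ := isConj_iff.1 hconj
        obtain ⟨hcu, hcg⟩ := hsplit hvP hgP hgreg c hc
        -- fusion in `C(g) ⊓ C(v)`
        set K := Subgroup.centralizer ({g} : Set G) ⊓ Subgroup.centralizer ({v} : Set G) with hK
        have hPK : P ≤ K := le_inf hPg fun x hx =>
          Subgroup.mem_centralizer_singleton_iff.2 (hab x hx v hvP)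
        set Q := P.map (MulAut.conj c).toMonoidHom
        have hQK : Q ≤ K := by
          rintro _ ⟨x, hx, rfl⟩
          refine ⟨Subgroup.mem_centralizer_singleton_iff.2 ?_,
            Subgroup.mem_centralizer_singleton_iff.2 ?_⟩
          · show c * x * c⁻¹ * g = g * (c * x * c⁻¹)
            conv_lhs => rw [← hcg]
            conv_rhs => rw [← hcg]
            calc c * x * c⁻¹ * (c * g * c⁻¹) = c * (x * g) * c⁻¹ := by group
              _ = c * (g * x) * c⁻¹ := by rw [Subgroup.mem_centralizer_iff.1 hgP x hx]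
              _ = _ := by group
          · show c * x * c⁻¹ * v = v * (c * x * c⁻¹)
            rw [← hcu]
            calc c * x * c⁻¹ * (c * u * c⁻¹) = c * (x * u) * c⁻¹ := by group
              _ = c * (u * x) * c⁻¹ := by rw [hab x hx u hu]
              _ = _ := by group
        have hKc : (Nat.card K).factorization p =
            (Nat.card (Subgroup.centralizer ({g} : Set G))).factorization p := by
          refine le_antisymm ((Nat.factorization_le_iff_dvd Nat.card_pos.ne' Nat.card_pos.ne').2
            (Subgroup.card_dvd_of_le inf_le_left) p) ?_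
          have h := (Nat.factorization_le_iff_dvd Nat.card_pos.ne' Nat.card_pos.ne').2
            (Subgroup.card_dvd_of_le hPK) p
          rwa [hcard, Fact.out (p := p.Prime) |>.factorization_pow, Finsupp.single_eq_same] at h
        obtain ⟨k, hk, hkQ⟩ := exists_conj_of_full hQK hPK
          (by rw [Subgroup.card_map_of_injective (MulAut.conj c).injective, hKc, hcard])
          (by rw [hKc, hcard])
        refine ⟨⟨k * c, ?_, ?_⟩, ?_⟩
        · show k * c ∈ Subgroup.normalizer (P : Set G)
          rw [Subgroup.mem_normalizer_iff_map_conj_eq]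
          refine map_eq_of_le_of_card_le ?_ le_rfl
          rintro _ ⟨x, hx, rfl⟩
          have := hkQ _ ⟨x, hx, rfl⟩
          simpa [mul_assoc] using this
        · refine Subgroup.mem_centralizer_singleton_iff.2 ?_
          have h1 := Subgroup.mem_centralizer_singleton_iff.1 hk.1
          calc k * c * g = k * (c * g * c⁻¹) * c := by group
            _ = g * (k * c) := by rw [hcg, h1, mul_assoc]
        · show k * c * u * (k * c)⁻¹ = v
          rw [show k * c * u * (k * c)⁻¹ = k * (c * u * c⁻¹) * k⁻¹ by group, hcu,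
            Subgroup.mem_centralizer_singleton_iff.1 hk.2, mul_inv_cancel_right]
    letI : MulAction X G := MulAction.compHom G ((MulAut.conj : G →* MulAut G).comp X.subtype)
    have hcount : (A g).card = (MulAction.stabilizer X u).index := by
      rw [MulAction.index_stabilizer, show MulAction.orbit X u = (A g : Set G) from himg,
        Set.ncard_coe_finset]
    rw [hcount]
    have hle : P.subgroupOf X ≤ MulAction.stabilizer X u := fun x hx => by
      rw [MulAction.mem_stabilizer_iff]
      show (x : G) * u * (x : G)⁻¹ = u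
      rw [hab _ (Subgroup.mem_subgroupOf.1 hx) u hu, mul_inv_cancel_right]
    intro hd
    have h1 : p ∣ P.relIndex (Subgroup.centralizer ({g} : Set G)) := by
      rw [← Subgroup.relIndex_mul_relIndex P X _ hPX inf_le_right]
      exact Dvd.dvd.mul_right (hd.trans (Subgroup.index_dvd_of_le hle)) _
    have h2 := Subgroup.relIndex_mul_relIndex ⊥ P (Subgroup.centralizer ({g} : Set G)) bot_le hPg
    rw [Subgroup.relIndex_bot_left, Subgroup.relIndex_bot_left, hcard] at h2
    have h3 : p ^ ((Nat.card (Subgroup.centralizer ({g} : Set G))).factorization p + 1) ∣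
        Nat.card (Subgroup.centralizer ({g} : Set G)) := by
      rw [pow_succ]
      exact (mul_dvd_mul_left _ h1).trans (dvd_of_eq h2)
    exact absurd ((hM.1.pow_dvd_iff_le_factorization Nat.card_pos.ne').1 h3) (by omega)
  -- the reduction of the class sum
  set y := toSub C (toF M (classSum ℂ (u * g))) with hy
  set wv : G → MonoidAlgebra (ResField M) C := fun v => ofFun fun s =>
    if IsConj g (s : G) ∧ IsConj (u * g) (v * (s : G)) then 1 else 0 with hwv
  have hreg : ∀ s : G, IsConj g s → ¬ p ∣ orderOf s := fun s hs => by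
    obtain ⟨c, rfl⟩ := isConj_iff.1 hs
    rwa [orderOf_conj_eq]
  have hdec : y = ∑ v : C, if (v : G) ∈ P then
      MonoidAlgebra.single v (1 : ResField M) * wv v else 0 := by
    refine alg_ext fun s => ?_
    rw [coeff_sum_apply, hy, coeff_toSub, coeff_toF, coeff_classSum]
    by_cases hs : IsConj (u * g) (s : G)
    · rw [if_pos hs, redC_one]
      obtain ⟨c, hc⟩ := isConj_iff.1 hs
      have hsp : IsPPart p (s : G) (c * u * c⁻¹) := by
        obtain ⟨y, hy1, hy2, ⟨k, hk⟩, hy4⟩ := hpart hu hgP hgreg
        refine ⟨c * y * c⁻¹, ?_, (Commute.conj_iff c).2 hy2, ⟨k, by rwa [orderOf_conj_eq]⟩,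
          by rwa [orderOf_conj_eq]⟩
        rw [← hc, ← hy1]; group
      have hs' : c * u * c⁻¹ * (c * g * c⁻¹) = (s : G) := by rw [← hc]; group
      have hv₀ : c * u * c⁻¹ ∈ P := by
        have hv : c * u * c⁻¹ ∈ C :=
          (Subgroup.zpowers_le.2 s.2) (IsPPart.mem_zpowers hsp)
        have hw : c * g * c⁻¹ ∈ C := by
          have h1 := mul_mem (inv_mem hv) s.2
          rwa [← hs', inv_mul_cancel_left] at h1
        have hgs : IsConj g (c * g * c⁻¹) := isConj_iff.2 ⟨c, rfl⟩
        obtain ⟨n, hn, hne⟩ := exists_normalizer_conj hgP hw hcard hgs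
        set K := Subgroup.centralizer ({c * g * c⁻¹} : Set G) with hK
        have hKP : P ≤ K := le_centralizer_singleton_iff.2 hw
        have hKc : (Nat.card K).factorization p =
            (Nat.card (Subgroup.centralizer ({g} : Set G))).factorization p := by
          have h1 := factorization_card_eq g p
          have h2 := factorization_card_eq (c * g * c⁻¹) p
          rw [show c * g * c⁻¹ = MulAut.conj c g from rfl, index_centralizer_map (MulAut.conj c) g] at h2
          rw [hK]
          rw [show c * g * c⁻¹ = MulAut.conj c g from rfl]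
          omega
        have hvK : c * u * c⁻¹ ∈ K := Subgroup.mem_centralizer_singleton_iff.2 (by
          calc c * u * c⁻¹ * (c * g * c⁻¹) = c * (u * g) * c⁻¹ := by group
            _ = c * (g * u) * c⁻¹ := by rw [Subgroup.mem_centralizer_iff.1 hgP u hu]
            _ = _ := by group)
        have hvC : Subgroup.zpowers (c * u * c⁻¹) ≤ Subgroup.centralizer (P : Set G) :=
          Subgroup.zpowers_le.2 hv
        have hzp : IsPGroup p (Subgroup.zpowers (c * u * c⁻¹)) := by
          obtain ⟨y, -, -, ⟨k, hk⟩, -⟩ := hsp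
          exact IsPGroup.of_card (n := k) (by rw [Nat.card_zpowers, hk])
        have hU : IsPGroup p (P ⊔ Subgroup.zpowers (c * u * c⁻¹) : Subgroup G) :=
          hPp.to_sup_of_normal_left' hzp
            (hvC.trans (Subgroup.centralizer_le_normalizer _))
        obtain ⟨j, hj⟩ := IsPGroup.iff_card.1 hU
        have hle : j ≤ (Nat.card K).factorization p := (hM.1.pow_dvd_iff_le_factorization
          Nat.card_pos.ne').1 (hj ▸ Subgroup.card_dvd_of_le
            (sup_le hKP (Subgroup.zpowers_le.2 hvK)))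
        have heq : P = P ⊔ Subgroup.zpowers (c * u * c⁻¹) :=
          Subgroup.eq_of_le_of_card_ge le_sup_left (by
            rw [hj, hcard, ← hKc]
            exact Nat.pow_le_pow_right hM.1.pos hle)
        exact heq ▸ Subgroup.mem_sup_right (Subgroup.mem_zpowers _)
      rw [Finset.sum_eq_single (⟨c * u * c⁻¹, hPC hv₀⟩ : C)]
      · rw [if_pos hv₀, MonoidAlgebra.coeff_single_mul_apply, one_mul, hwv, coeff_ofFun, if_pos]
        have e : (((⟨c * u * c⁻¹, hPC hv₀⟩ : C)⁻¹ * s : C) : G) = c * g * c⁻¹ := by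
          rw [Subgroup.coe_mul, Subgroup.coe_inv, ← hs', inv_mul_cancel_left]
        rw [e]
        exact ⟨isConj_iff.2 ⟨c, rfl⟩, isConj_iff.2 ⟨c, by group⟩⟩
      · intro v _ hne
        split_ifs with hvP
        · rw [MonoidAlgebra.coeff_single_mul_apply, one_mul, hwv, coeff_ofFun, if_neg]
          rintro ⟨h1, -⟩
          refine hne (Subtype.ext (IsPPart.unique ?_ hsp))
          have := hpart hvP (v⁻¹ * s).2 (hreg _ h1)
          rwa [← Subgroup.coe_mul, mul_inv_cancel_left] at this
        · rfl
      · exact fun h => absurd (Finset.mem_univ _) h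
    · rw [if_neg hs, redC_zero]
      refine (Finset.sum_eq_zero fun v _ => ?_).symm
      split_ifs with hvP
      · rw [MonoidAlgebra.coeff_single_mul_apply, one_mul, hwv, coeff_ofFun, if_neg]
        rintro ⟨-, h2⟩
        rw [← Subgroup.coe_mul, mul_inv_cancel_left] at h2
        exact hs h2
      · rfl
  have hwc : ∀ v : C, (v : G) ∈ P → IsClassCoeff (wv v) := by
    intro v hv c s
    simp only [hwv, coeff_ofFun]
    have e1 : ((c * s * c⁻¹ : C) : G) = (c : G) * s * (c : G)⁻¹ := rfl
    refine if_congr (and_congr ⟨fun h => h.trans ?_, fun h => h.trans ?_⟩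
      ⟨fun h => h.trans ?_, fun h => h.trans ?_⟩) rfl rfl
    · rw [e1]; exact isConj_iff.2 ⟨(c : G)⁻¹, by group⟩
    · rw [e1]; exact isConj_iff.2 ⟨(c : G), rfl⟩
    · rw [e1]
      refine isConj_iff.2 ⟨(c : G)⁻¹, ?_⟩
      rw [inv_inv]
      have := Subgroup.mem_centralizer_iff.1 c.2 _ hv
      calc (c : G)⁻¹ * ((v : G) * ((c : G) * s * (c : G)⁻¹)) * c =
          (c : G)⁻¹ * ((v : G) * c) * s := by group
        _ = (c : G)⁻¹ * ((c : G) * v) * s := by rw [this]
        _ = (v : G) * s := by group
    · rw [e1]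
      refine isConj_iff.2 ⟨(c : G), ?_⟩
      have := Subgroup.mem_centralizer_iff.1 c.2 _ hv
      calc (c : G) * ((v : G) * s) * (c : G)⁻¹ = ((c : G) * v) * s * (c : G)⁻¹ := by group
        _ = ((v : G) * c) * s * (c : G)⁻¹ := by rw [this]
        _ = _ := by group
  have hsum : (∑ v : C, if (v : G) ∈ P then wv v else 0) =
      ((A g).card : ResField M) • toSub C (toF M (classSum ℂ g)) := by
    refine alg_ext fun s => ?_
    rw [coeff_sum_apply, MonoidAlgebra.coeff_smul_apply, coeff_toSub, coeff_toF, coeff_classSum,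
      smul_eq_mul]
    by_cases hs : IsConj g (s : G)
    · rw [if_pos hs, redC_one, mul_one, ← hA_inv s s.2 hs, hA,
        Finset.natCast_card_filter]
      rw [← Finset.sum_filter_add_sum_filter_not (Finset.univ : Finset G) (· ∈ C)]
      rw [Finset.sum_eq_zero (s := Finset.univ.filter fun v => ¬ v ∈ C) (fun v hv => by
        rw [if_neg fun h => (Finset.mem_filter.1 hv).2 (hPC h.1)]), add_zero,
        Finset.sum_subtype (p := (· ∈ C)) _ (fun v => by simp)]
      refine Finset.sum_congr rfl fun v _ => ?_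
      by_cases h1 : (v : G) ∈ P
      · rw [if_pos h1]
        simp only [hwv, coeff_ofFun]
        exact if_congr ⟨fun h => ⟨h1, h.2⟩, fun h => ⟨hs, h.2⟩⟩ rfl rfl
      · rw [if_neg h1, if_neg (fun h => h1 h.1)]
        rfl
    · rw [if_neg hs, redC_zero, mul_zero]
      refine Finset.sum_eq_zero fun v _ => ?_
      split_ifs
      · rw [hwv, coeff_ofFun, if_neg fun h => hs h.1]
      · rfl
  -- conclusion
  intro h0
  have hlam : ∀ x : G, lam M χ (toF M (classSum ℂ x)) = redC M (centralChar (χ : G → ℂ) x) :=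
    fun x => by rw [lam_toF χ (isClassCoeff_classSum x) (intR_classSum x), omega_classSum_irr]
  have hl := lam_pair hM hf hχ hξ (z := toF M (classSum ℂ (u * g)))
    (isClassCoeff_toF (isClassCoeff_classSum _))
  rw [hlam, h0, ← hy, hdec, lam_sum] at hl
  have hl' : ∀ v : C, lam M ξ (if (v : G) ∈ P then
      MonoidAlgebra.single v (1 : ResField M) * wv v else 0) =
      lam M ξ (if (v : G) ∈ P then wv v else 0) := by
    intro v
    split_ifs with hv
    · obtain ⟨k, hk⟩ := hPp ⟨v, hv⟩
      rw [lam_mul ξ (isClassCoeff_single_of_center (hcentral v hv)) (hwc v hv),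
        lam_single_central hM ξ (hcentral v hv) (k := k)
          (Subtype.ext (by simpa using congrArg Subtype.val hk)), one_mul]
    · rfl
  rw [Finset.sum_congr rfl fun v _ => hl' v, ← lam_sum, hsum, lam_smul,
    lam_pair hM hf hχ hξ (isClassCoeff_toF (isClassCoeff_classSum g)), hlam] at hl
  rcases mul_eq_zero.1 hl with h1 | h1
  · exact hAg ((CharP.cast_eq_zero_iff (ResField M) p _).1 h1)
  · exact ((isDefectClass_iff hB hχ).1 hg).2 h1

/-- A character of a block with abelian defect group does not vanish on every section. -/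
theorem exists_regular_apply_ne_zero (hM : IsPModular p M) {B : Set (IrrCharacter G)}
    (hB : IsPBlock M B) {P : Subgroup G} (hP : IsDefectGroup p M B P)
    (hab : ∀ x ∈ P, ∀ y ∈ P, x * y = y * x) {u : G} (hu : u ∈ P) {χ : IrrCharacter G}
    (hχ : χ ∈ B) :
    ∃ s ∈ Subgroup.centralizer ({u} : Set G), IsPRegular p s ∧ (χ : G → ℂ) (u * s) ≠ 0 := by
  obtain ⟨-, -, g, hg, hgP⟩ := IsDefectGroup.props hM hB hP
  refine ⟨g, Subgroup.mem_centralizer_singleton_iff.2
    (Subgroup.mem_centralizer_iff.1 hgP u hu).symm, (defectClass_facts hM hB hg).2.1, fun h0 => ?_⟩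
  apply centralChar_mul_ne_zero hM hB hP hab hg hgP hu hχ
  rw [centralChar, h0, mul_zero, zero_div, redC_zero]

end Cfsg.Agent.Lib.Block
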