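import Cfsg.Agent.Lib.BrauerPairs.AbelianInertial

/-!
# Alternating sums over chains of `p`-subgroups and counts of subsections
-/

set_option autoImplicit false
set_option linter.unusedSectionVars false
set_option linter.style.haveILetI false

namespace Cfsg.Agent.Lib.Block.ChainSum

open Cfsg Cfsg.Agent.Lib Cfsg.Agent.Lib.Block Cfsg.Agent.Lib.BrauerPairs
open Cfsg.Agent.S4642 (induced_iff_occ)
open Cfsg.Agent.Lib.BrauerPairs.KleinDefect (blockRank_mapBlock centralizer_zpowers)

universe u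

variable {p : ℕ} {M : Ideal AlgInt} [M.IsPrime] {G : Type u} [Group G] [Finite G]

/-! ### Counting -/

open scoped Classical in
/-- The rank carried by the blocks of `K` inducing `b`. -/
noncomputable def localRank (p : ℕ) (M : Ideal AlgInt) [M.IsPrime] (b : Set (IrrCharacter G))
    (K : Subgroup G) : ℕ :=
  ∑ f ∈ (blocks M K).filter (fun f => IsInducedBlock M K f b), blockRank p f

theorem localRank_eq (b : Set (IrrCharacter G)) (K : Subgroup G) :
    (∑ᶠ f ∈ {f : Set (IrrCharacter K) | IsInducedBlock M K f b}, blockRank p f) =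
      localRank p M b K := by
  classical
  rw [localRank, ← finsum_mem_coe_finset]
  refine finsum_mem_congr ?_ fun _ _ => rfl
  ext f
  simp only [Set.mem_ofPred_eq, Finset.coe_filter, mem_blocks]
  exact ⟨fun h => ⟨h.1, h⟩, fun h => h.2⟩

theorem localRank_one (hM : IsPModular p M) {B : Set (IrrCharacter G)} (hB : IsPBlock M B) :
    localRank p M B (Subgroup.centralizer ({(1 : G)} : Set G)) = blockRank p B := by
  classical
  rw [← localRank_eq, finsum_congr_cent (H' := Subgroup.centralizer ((⊥ : Subgroup G) : Set G))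
    (by rw [← centralizer_zpowers, Subgroup.zpowers_one_eq_bot])]
  have htop : ∀ g : G, g ∈ Subgroup.centralizer ((⊥ : Subgroup G) : Set G) := fun g =>
    Subgroup.mem_centralizer_iff.2 fun y hy => by
      rw [Subgroup.mem_bot.1 hy, one_mul, mul_one]
  obtain ⟨f₀, hf₀⟩ : ∃ f : CBlock (⊥ : Subgroup G),
      IsInducedBlock M (Subgroup.centralizer ((⊥ : Subgroup G) : Set G)) f B := by
    obtain ⟨f, hf⟩ := exists_occ hM (P := (⊥ : Subgroup G)) IsPGroup.of_bot (good_bar hB ⊥)
      (by rw [show br (⊥ : Subgroup G) (bar M B) = bar M B from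
        alg_ext fun y => coeff_br_of_mem _ (htop y)]; exact bar_ne_zero hB)
    exact ⟨f, (induced_iff_occ hM IsPGroup.of_bot hB).2 hf⟩
  rw [show {f : CBlock (⊥ : Subgroup G) |
      IsInducedBlock M (Subgroup.centralizer ((⊥ : Subgroup G) : Set G)) f B} = {f₀} from ?_,
    finsum_mem_singleton]
  · exact blockRank_eq_of_centralizer_top hB htop hf₀.1
      ((induced_iff_occ hM IsPGroup.of_bot hB).1 hf₀).2
  · refine Set.eq_singleton_iff_unique_mem.2 ⟨hf₀, fun f hf => ?_⟩
    let φ : Subgroup.centralizer ((⊥ : Subgroup G) : Set G) ≃* G :=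
      { toFun := fun y => (y : G)
        invFun := fun g => ⟨g, htop g⟩
        left_inv := fun _ => rfl
        right_inv := fun _ => rfl
        map_mul' := fun _ _ => rfl }
    have key : ∀ f : CBlock (⊥ : Subgroup G),
        IsInducedBlock M (Subgroup.centralizer ((⊥ : Subgroup G) : Set G)) f B →
        mapBlock φ f = B := by
      intro f hf
      obtain ⟨hfb, ho⟩ := (induced_iff_occ hM IsPGroup.of_bot hB).1 hf
      have hbar : pbar M ⊥ f = bar M (mapBlock φ f) := alg_ext fun y => by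
        rw [pbar, coeff_emb_of_mem _ _ (htop y), ← coeff_bar_mapBlock φ f]
        rfl
      rw [Occ, hbar, show br (⊥ : Subgroup G) (bar M B) = bar M B from
        alg_ext fun y => coeff_br_of_mem _ (htop y)] at ho
      have hB' := isPBlock_mapBlock φ hfb
      rcases bar_mul_idem hB (isClassCoeff_bar _) (isIdempotentElem_bar hB') with h | h
      · rw [((isClassCoeff_bar (M := M) B).commute _).eq, ho] at h
        exact absurd h (bar_ne_zero hB')
      · rw [((isClassCoeff_bar (M := M) B).commute _).eq, ho] at h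
        exact bar_inj hB' hB h
    have h := (key f hf).trans (key f₀ hf₀).symm
    rw [mapBlock, mapBlock] at h
    exact Set.image_injective.2 (mapIrr_injective φ) h

open scoped Classical in
/-- The count of a block, averaged over all nontrivial `p`-elements. -/
theorem card_mul_sub (hM : IsPModular p M) {B : Set (IrrCharacter G)} (hB : IsPBlock M B)
    [Fintype G] :
    (Nat.card G : ℤ) * ((Nat.card B : ℤ) - blockRank p B) =
      ∑ x ∈ Finset.univ.filter (fun x : G => IsPElem p x ∧ x ≠ 1),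
        ((Nat.card (Subgroup.centralizer ({x} : Set G)) *
          localRank p M B (Subgroup.centralizer ({x} : Set G)) : ℕ) : ℤ) := by
  set t : G → ℕ := fun x => localRank p M B (Subgroup.centralizer ({x} : Set G)) with ht
  set X : Finset G := (Finset.univ.filter fun g : G => IsPElem p g).image
    fun g => (ConjClasses.mk g).out with hXdef
  have hout : ∀ g : G, IsConj g (ConjClasses.mk g).out := fun g =>
    ConjClasses.mk_eq_mk_iff_isConj.1 (Quotient.out_eq (ConjClasses.mk g)).symm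
  have hconjp : ∀ {g h : G}, IsConj g h → IsPElem p g → IsPElem p h := fun hgh hg => by
    obtain ⟨k, hk⟩ := hg
    obtain ⟨a, ha⟩ := isConj_iff.1 hgh
    exact ⟨k, by rw [← ha, orderOf_conj_eq, hk]⟩
  have hXp : ∀ x ∈ X, IsPElem p x := by
    intro x hx
    obtain ⟨g, hg, rfl⟩ := Finset.mem_image.1 hx
    exact hconjp (hout g) (Finset.mem_filter.1 hg).2
  have hXrep : ∀ g : G, IsPElem p g → ∃! x, x ∈ X ∧ IsConj g x := by
    intro g hg
    refine ⟨(ConjClasses.mk g).out, ⟨Finset.mem_image.2 ⟨g, by simpa using hg, rfl⟩, hout g⟩, ?_⟩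
    rintro y ⟨hy, hgy⟩
    obtain ⟨g', -, rfl⟩ := Finset.mem_image.1 hy
    rw [ConjClasses.mk_eq_mk_iff_isConj.2 (hgy.trans (hout g').symm)]
  have hk : Nat.card B = ∑ x ∈ X, t x := by
    rw [card_block_eq_sum hM hB X hXp hXrep]
    exact Finset.sum_congr rfl fun x _ => localRank_eq B _
  -- the summand is constant on classes
  have hconst : ∀ r ∈ X, ∀ y : G, IsConj y r → t y = t r := by
    intro r hr y hy
    by_cases hyX : y ∈ X
    · obtain ⟨z, -, hz⟩ := hXrep y (hXp y hyX)
      rw [hz y ⟨hyX, IsConj.refl y⟩, hz r ⟨hr, hy⟩]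
    · have hyp : IsPElem p y := hconjp hy.symm (hXp r hr)
      have hX'p : ∀ x ∈ insert y (X.erase r), IsPElem p x := fun x hx => by
        rcases Finset.mem_insert.1 hx with rfl | h
        exacts [hyp, hXp x (Finset.mem_erase.1 h).2]
      have hX'rep : ∀ g : G, IsPElem p g → ∃! x, x ∈ insert y (X.erase r) ∧ IsConj g x := by
        intro g hg
        obtain ⟨z, ⟨hz, hgz⟩, huniq⟩ := hXrep g hg
        by_cases hzr : z = r
        · subst hzr
          refine ⟨y, ⟨Finset.mem_insert_self _ _, hgz.trans hy.symm⟩, ?_⟩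
          rintro x ⟨hx, hgx⟩
          rcases Finset.mem_insert.1 hx with rfl | h
          · rfl
          · exact absurd (huniq x ⟨(Finset.mem_erase.1 h).2, hgx⟩) (Finset.mem_erase.1 h).1
        · refine ⟨z, ⟨Finset.mem_insert_of_mem (Finset.mem_erase.2 ⟨hzr, hz⟩), hgz⟩, ?_⟩
          rintro x ⟨hx, hgx⟩
          rcases Finset.mem_insert.1 hx with rfl | h
          · exact absurd (huniq r ⟨hr, hgx.trans hy⟩).symm hzr
          · exact huniq x ⟨(Finset.mem_erase.1 h).2, hgx⟩
      have h2 := card_block_eq_sum hM hB _ hX'p hX'rep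
      rw [hk, Finset.sum_congr rfl fun x _ => localRank_eq B _,
        Finset.sum_insert (fun h => hyX (Finset.mem_erase.1 h).2),
        ← Finset.add_sum_erase X t hr] at h2
      change t r + _ = t y + _ at h2
      exact (add_right_cancel h2).symm
  have hfib : Nat.card G * Nat.card B =
      ∑ x ∈ Finset.univ.filter (fun x : G => IsPElem p x),
        Nat.card (Subgroup.centralizer ({x} : Set G)) * t x := by
    rw [hk, Finset.mul_sum, ← Finset.sum_fiberwise_of_maps_to
      (s := Finset.univ.filter (fun x : G => IsPElem p x))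
      (g := fun g => (ConjClasses.mk g).out) (t := X)
      fun g hg => Finset.mem_image_of_mem _ hg]
    refine Finset.sum_congr rfl fun r hr => ?_
    have hset : ∀ y, y ∈ (Finset.univ.filter (fun x : G => IsPElem p x)).filter
        (fun g => (ConjClasses.mk g).out = r) ↔ IsConj r y := by
      intro y
      simp only [Finset.mem_filter, Finset.mem_univ, true_and]
      refine ⟨fun h => h.2 ▸ (hout y).symm, fun h => ⟨hconjp h (hXp r hr), ?_⟩⟩
      obtain ⟨z, -, hz⟩ := hXrep r (hXp r hr)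
      rw [hz r ⟨hr, IsConj.refl r⟩]
      exact hz _ ⟨Finset.mem_image.2 ⟨y, by simpa using hconjp h (hXp r hr), rfl⟩, h.trans (hout y)⟩
    rw [Finset.sum_congr rfl (g := fun _ => Nat.card (Subgroup.centralizer ({r} : Set G)) * t r)
      fun y hy => ?_, Finset.sum_const, smul_eq_mul, ← mul_assoc]
    · congr 1
      rw [← Nat.card_eq_finsetCard, Nat.card_congr (Equiv.subtypeEquivRight hset),
        card_isConj_eq_index, Subgroup.index_mul_card]
    · obtain ⟨c, hc⟩ := isConj_iff.1 ((hset y).1 hy)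
      rw [hconst r hr y ((hset y).1 hy).symm, ← hc, card_centralizer_conj]
  rw [mul_sub, ← Nat.cast_mul, hfib, Nat.cast_sum,
    ← Finset.add_sum_erase (Finset.univ.filter fun x : G => IsPElem p x)
      (fun x => ((Nat.card (Subgroup.centralizer ({x} : Set G)) * t x : ℕ) : ℤ))
      (a := (1 : G)) (Finset.mem_filter.2 ⟨Finset.mem_univ _, 0, by simp⟩)]
  have h1 : ((Nat.card (Subgroup.centralizer ({(1 : G)} : Set G)) * t 1 : ℕ) : ℤ) =
      (Nat.card G : ℤ) * blockRank p B := by
    simp only [ht]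
    rw [show Subgroup.centralizer ({(1 : G)} : Set G) = ⊤ from eq_top_iff.2 fun g _ =>
      Subgroup.mem_centralizer_singleton_iff.2 (by simp), Subgroup.card_top, Nat.cast_mul]
    congr 2
    rw [← localRank_one hM hB, show Subgroup.centralizer ({(1 : G)} : Set G) = ⊤ from
      eq_top_iff.2 fun g _ => Subgroup.mem_centralizer_singleton_iff.2 (by simp)]
  rw [h1, add_sub_cancel_left]
  refine Finset.sum_congr ?_ fun _ _ => rfl
  ext x
  simp [and_comm]

open scoped Classical in
/-- The rank of a union of blocks is the sum of the ranks. -/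
theorem blockRank_union (hM : IsPModular p M) (S : Finset (Set (IrrCharacter G)))
    (hS : ∀ c ∈ S, IsPBlock M c) :
    blockRank p (⋃ c ∈ S, c) = ∑ c ∈ S, blockRank p c := by
  haveI := Fintype.ofFinite G
  let Ψ : ((c : {c // c ∈ S}) → regSpan p c.1) →ₗ[ℂ] (G → ℂ) :=
    ∑ c : {c // c ∈ S}, (regSpan p c.1).subtype ∘ₗ LinearMap.proj c
  have hΨ : ∀ w, Ψ w = ∑ c : {c // c ∈ S}, ((w c : regSpan p c.1) : G → ℂ) := fun w => by
    simp [Ψ, LinearMap.sum_apply]
  have hinj : Function.Injective Ψ := by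
    rw [← LinearMap.ker_eq_bot, LinearMap.ker_eq_bot']
    intro w hw
    funext c
    refine Subtype.ext ?_
    have h := congrArg (blockProj p c.1) hw
    rw [hΨ, map_sum, map_zero, Finset.sum_eq_single c] at h
    · rw [blockProj_eq_of_mem hM (hS _ c.2) (hS _ c.2) (w c).2, if_pos rfl] at h
      exact h
    · intro c' _ hne
      rw [blockProj_eq_of_mem hM (hS _ c.2) (hS _ c'.2) (w c').2,
        if_neg fun h => hne (Subtype.ext h)]
    · simp
  have hrange : LinearMap.range Ψ = regSpan p (⋃ c ∈ S, c) := by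
    refine le_antisymm ?_ (Submodule.span_le.2 ?_)
    · rintro _ ⟨w, rfl⟩
      rw [hΨ]
      refine Submodule.sum_mem _ fun c _ => ?_
      exact Submodule.span_mono (Set.image_mono (Set.subset_biUnion_of_mem (u := id) c.2)) (w c).2
    · rintro _ ⟨χ, hχ, rfl⟩
      obtain ⟨c, hc, hχc⟩ := Set.mem_iUnion₂.1 hχ
      refine ⟨Pi.single ⟨c, hc⟩ ⟨_, Submodule.subset_span ⟨χ, hχc, rfl⟩⟩, ?_⟩
      rw [hΨ, Finset.sum_eq_single (⟨c, hc⟩ : {c // c ∈ S})]
      · rw [Pi.single_eq_same]
      · intro c' _ hne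
        rw [Pi.single_eq_of_ne hne]
        rfl
      · simp
  rw [← finrank_regSpan, ← hrange, ← (LinearEquiv.ofInjective Ψ hinj).finrank_eq,
    Module.finrank_pi_fintype]
  exact Finset.sum_coe_sort S fun c => blockRank p c

open scoped Classical in
theorem card_union (S : Finset (Set (IrrCharacter G))) (hS : ∀ c ∈ S, IsPBlock M c) :
    Nat.card (⋃ c ∈ S, c : Set (IrrCharacter G)) = ∑ c ∈ S, Nat.card c := by
  haveI := Fintype.ofFinite G
  have hd : (S : Set (Set (IrrCharacter G))).PairwiseDisjoint fun c => c.toFinset := by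
    intro c hc c' hc' hne
    refine Finset.disjoint_left.2 fun χ h h' => hne ?_
    exact eq_of_mem_of_mem (hS c hc) (hS c' hc') (Set.mem_toFinset.1 h) (Set.mem_toFinset.1 h')
  rw [Finset.sum_congr rfl fun c _ => (Nat.card_eq_card_toFinset (s := c)),
    ← Finset.card_biUnion hd, Nat.card_eq_card_toFinset]
  congr 1
  ext χ
  simp

section Transitivity

variable {N : Subgroup G}

/-- `C_N(x) ≃ C_G(x) ⊓ N`. -/
noncomputable def infEquiv (x : N) :
    Subgroup.centralizer ({x} : Set N) ≃*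
      ↥(Subgroup.centralizer ({(x : G)} : Set G) ⊓ N) where
  toFun c := ⟨((c : N) : G), Subgroup.mem_centralizer_singleton_iff.2
    (congrArg Subtype.val (Subgroup.mem_centralizer_singleton_iff.1 c.2)), (c : N).2⟩
  invFun c := ⟨⟨(c : G), c.2.2⟩, Subgroup.mem_centralizer_singleton_iff.2
    (Subtype.ext (Subgroup.mem_centralizer_singleton_iff.1 c.2.1))⟩
  left_inv _ := rfl
  right_inv _ := rfl
  map_mul' _ _ := rfl

theorem inducedCentralChar_infEquiv (x : N)
    (ξ : IrrCharacter (Subgroup.centralizer ({x} : Set N))) (g : G) :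
    inducedCentralChar (Subgroup.centralizer ({(x : G)} : Set G) ⊓ N)
        (mapIrr (infEquiv x) ξ : ↥(Subgroup.centralizer ({(x : G)} : Set G) ⊓ N) → ℂ) g =
      omega (ξ : Subgroup.centralizer ({x} : Set N) → ℂ)
        (toSub (Subgroup.centralizer ({x} : Set N)) (toSub N (classSum ℂ g))) := by
  classical
  haveI := Fintype.ofFinite ↥(Subgroup.centralizer ({(x : G)} : Set G) ⊓ N)
  haveI := Fintype.ofFinite (Subgroup.centralizer ({x} : Set N))
  rw [inducedCentralChar_eq, omega_eq_sum, omega_eq_sum, ← Equiv.sum_comp (infEquiv x).toEquiv]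
  congr 1

/-- Induction through an intermediate subgroup. -/
theorem induced_trans (x : N) {f : Set (IrrCharacter (Subgroup.centralizer ({x} : Set N)))}
    {c : Set (IrrCharacter N)} (hfc : IsInducedBlock M (Subgroup.centralizer ({x} : Set N)) f c)
    {b : Set (IrrCharacter G)} :
    IsInducedBlock M (Subgroup.centralizer ({(x : G)} : Set G) ⊓ N) (mapBlock (infEquiv x) f) b ↔
      IsInducedBlock M N c b := by
  obtain ⟨hf, hc, -⟩ := id hfc
  have key : ∀ ξ ∈ f, ∀ ψ ∈ c, ∀ g : G,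
      redC M (inducedCentralChar (Subgroup.centralizer ({(x : G)} : Set G) ⊓ N)
        (mapIrr (infEquiv x) ξ : ↥(Subgroup.centralizer ({(x : G)} : Set G) ⊓ N) → ℂ) g) =
      redC M (inducedCentralChar N (ψ : N → ℂ) g) := by
    intro ξ hξ ψ hψ g
    rw [inducedCentralChar_infEquiv, inducedCentralChar_eq N,
      redC_omega_toSub_eq hfc hξ hψ (isClassCoeff_toSub (isClassCoeff_classSum g))
        (intR_toSub (intR_classSum g))]
  rw [isInducedBlock_iff, isInducedBlock_iff]
  constructor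
  · rintro ⟨-, hb, h⟩
    refine ⟨hc, hb, fun ψ hψ χ hχ g => ?_⟩
    obtain ⟨ξ, hξ⟩ := isPBlock_nonempty hf
    rw [← key ξ hξ ψ hψ g]
    exact h _ ⟨ξ, hξ, rfl⟩ χ hχ g
  · rintro ⟨-, hb, h⟩
    refine ⟨isPBlock_mapBlock _ hf, hb, ?_⟩
    rintro _ ⟨ξ, hξ, rfl⟩ χ hχ g
    obtain ⟨ψ, hψ⟩ := isPBlock_nonempty hc
    rw [key ξ hξ ψ hψ g]
    exact h ψ hψ χ hχ g

theorem induced_unique' {H : Subgroup G} {f : Set (IrrCharacter H)} {B B' : Set (IrrCharacter G)}
    (h : IsInducedBlock M H f B) (h' : IsInducedBlock M H f B') : B = B' := by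
  obtain ⟨ξ, hξ⟩ := isPBlock_nonempty h.1
  obtain ⟨χ, hχ⟩ := isPBlock_nonempty h.2.1
  obtain ⟨χ', hχ'⟩ := isPBlock_nonempty h'.2.1
  have hs : SameBlock M (χ : G → ℂ) (χ' : G → ℂ) := sameBlock_iff.2 fun g => by
    rw [← (isInducedBlock_iff.1 h).2.2 ξ hξ χ hχ g, ← (isInducedBlock_iff.1 h').2.2 ξ hξ χ' hχ' g]
  refine eq_of_mem_of_mem h.2.1 h'.2.1 (χ := χ') ?_ hχ'
  rw [blockOf_eq_of_mem h.2.1 hχ]
  exact hs

open scoped Classical in
theorem sum_localRank (hM : IsPModular p M) (b : Set (IrrCharacter G)) (x : N)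
    (hx : IsPElem p x) :
    ∑ c ∈ (blocks M N).filter (fun c => IsInducedBlock M N c b),
        localRank p M c (Subgroup.centralizer ({x} : Set N)) =
      localRank p M b (Subgroup.centralizer ({(x : G)} : Set G) ⊓ N) := by
  unfold localRank
  rw [Finset.sum_sigma']
  refine Finset.sum_bij (fun a _ => mapBlock (infEquiv x) a.2) ?_ ?_ ?_ ?_
  · rintro ⟨c, f⟩ ha
    simp only [Finset.mem_sigma, Finset.mem_filter, mem_blocks] at ha ⊢
    exact ⟨isPBlock_mapBlock _ ha.2.1, (induced_trans x ha.2.2).2 ha.1.2⟩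
  · rintro ⟨c, f⟩ ha ⟨c', f'⟩ ha' he
    simp only [Finset.mem_sigma, Finset.mem_filter] at ha ha'
    obtain rfl : f = f' := Set.image_injective.2 (mapIrr_injective (infEquiv x)) he
    obtain rfl : c = c' := induced_unique' ha.2.2 ha'.2.2
    rfl
  · intro g hg
    simp only [Finset.mem_filter, mem_blocks] at hg
    have hf : IsPBlock M (mapBlock (infEquiv x).symm g) := isPBlock_mapBlock _ hg.1
    obtain ⟨c, hc⟩ := inducedBlockDefined_centralizer hM hx hf
    refine ⟨⟨c, mapBlock (infEquiv x).symm g⟩, ?_, mapBlock_symm (infEquiv x) g⟩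
    simp only [Finset.mem_sigma, Finset.mem_filter, mem_blocks]
    refine ⟨⟨hc.2.1, (induced_trans x hc).1 ?_⟩, hf, hc⟩
    rw [mapBlock_symm]
    exact hg.2
  · rintro ⟨c, f⟩ _
    exact (blockRank_mapBlock _ p f).symm

open scoped Classical in
/-- The count over a subgroup, summed over its blocks inducing `b`. -/
theorem count_subgroup (hM : IsPModular p M) (b : Set (IrrCharacter G)) (N : Subgroup G)
    [Fintype G] :
    (Nat.card N : ℤ) * ((Nat.card {ψ : IrrCharacter N | ∃ β : Set (IrrCharacter N),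
        ψ ∈ β ∧ IsInducedBlock M N β b} : ℤ) -
      (blockRank p {ψ : IrrCharacter N | ∃ β : Set (IrrCharacter N),
        ψ ∈ β ∧ IsInducedBlock M N β b} : ℤ)) =
      ∑ x ∈ Finset.univ.filter (fun x : G => IsPElem p x ∧ x ≠ 1),
        if x ∈ N then ((Nat.card ↥(Subgroup.centralizer ({x} : Set G) ⊓ N) *
          localRank p M b (Subgroup.centralizer ({x} : Set G) ⊓ N) : ℕ) : ℤ) else 0 := by
  haveI := Fintype.ofFinite N
  set S := (blocks M N).filter (fun c => IsInducedBlock M N c b) with hS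
  have hSb : ∀ c ∈ S, IsPBlock M c := fun c hc => mem_blocks.1 (Finset.mem_filter.1 hc).1
  have hU : {ψ : IrrCharacter N | ∃ β : Set (IrrCharacter N),
      ψ ∈ β ∧ IsInducedBlock M N β b} = ⋃ c ∈ S, c := by
    ext ψ
    simp only [Set.mem_ofPred_eq, Set.mem_iUnion, hS, Finset.mem_filter, mem_blocks]
    exact ⟨fun ⟨β, h, hi⟩ => ⟨β, ⟨hi.1, hi⟩, h⟩, fun ⟨β, ⟨_, hi⟩, h⟩ => ⟨β, h, hi⟩⟩
  have hcount : ∀ c ∈ S, (Nat.card N : ℤ) * ((Nat.card c : ℤ) - blockRank p c) =
      ∑ y ∈ Finset.univ.filter (fun y : N => IsPElem p y ∧ y ≠ 1),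
        ((Nat.card (Subgroup.centralizer ({y} : Set N)) *
          localRank p M c (Subgroup.centralizer ({y} : Set N)) : ℕ) : ℤ) := fun c hc => by
    convert card_mul_sub hM (hSb c hc)
  rw [hU, blockRank_union hM S hSb, card_union S hSb, Nat.cast_sum, Nat.cast_sum,
    ← Finset.sum_sub_distrib, Finset.mul_sum,
    Finset.sum_congr rfl hcount, Finset.sum_comm]
  rw [← Finset.sum_filter]
  refine Finset.sum_bij (fun y _ => (y : G)) ?_ (fun _ _ _ _ h => Subtype.ext h) ?_ ?_
  · intro y hy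
    simp only [Finset.mem_filter, Finset.mem_univ, true_and] at hy ⊢
    exact ⟨⟨by obtain ⟨k, hk⟩ := hy.1; exact ⟨k, by rw [Subgroup.orderOf_coe, hk]⟩,
      fun h => hy.2 (Subtype.ext h)⟩, y.2⟩
  · intro g hg
    simp only [Finset.mem_filter, Finset.mem_univ, true_and] at hg
    refine ⟨⟨g, hg.2⟩, ?_, rfl⟩
    simp only [Finset.mem_filter, Finset.mem_univ, true_and]
    obtain ⟨k, hk⟩ := hg.1.1
    exact ⟨⟨k, by rw [Subgroup.orderOf_mk, hk]⟩, fun h => hg.1.2 (congrArg Subtype.val h)⟩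
  · intro y hy
    rw [← sum_localRank hM b y (Finset.mem_filter.1 hy).2.1, ← Nat.card_congr (infEquiv y).toEquiv,
      Finset.mul_sum, Nat.cast_sum]

end Transitivity

/-! ### Cancellation over chains -/

/-- Membership of a toggled element. -/
theorem mem_symmDiff_singleton {α : Type*} [DecidableEq α] {s : Finset α} {a b : α} :
    b ∈ (if a ∈ s then s.erase a else insert a s) ↔ (b ≠ a ∧ b ∈ s) ∨ (b = a ∧ a ∉ s) := by
  split_ifs with h
  · simp [h]
  · by_cases hb : b = a <;> simp [hb, h]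

/-- A parity cancellation by toggling one element. -/
theorem sum_toggle {α : Type*} [DecidableEq α] (𝒜 : Finset (Finset α)) (w : Finset α → ℤ)
    (pick : Finset α → α)
    (hmem : ∀ s ∈ 𝒜, (if pick s ∈ s then s.erase (pick s) else insert (pick s) s) ∈ 𝒜)
    (hpick : ∀ s ∈ 𝒜, pick (if pick s ∈ s then s.erase (pick s) else insert (pick s) s) = pick s)
    (hw : ∀ s ∈ 𝒜, w (if pick s ∈ s then s.erase (pick s) else insert (pick s) s) = w s) :
    ∑ s ∈ 𝒜, (-1 : ℤ) ^ s.card * w s = 0 := by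
  refine Finset.sum_involution
    (fun s _ => if pick s ∈ s then s.erase (pick s) else insert (pick s) s) ?_ ?_ hmem ?_
  · intro s hs
    rw [hw s hs]
    split_ifs with h
    · rw [← Finset.card_erase_add_one h, pow_succ]
      simp [Finset.card_erase_of_mem h]
    · rw [Finset.card_insert_of_notMem h, pow_succ]
      ring
  · intro s _ _ he
    split_ifs at he with h
    · exact Finset.erase_ne_self.2 h he
    · exact h (Finset.insert_eq_self.1 he)
  · intro s hs
    rw [hpick s hs]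
    ext b
    rw [mem_symmDiff_singleton, mem_symmDiff_singleton, mem_symmDiff_singleton]
    by_cases hb : b = pick s <;> simp [hb]

/-- The subgroup fixing every member of a chain. -/
abbrev stabOf (s : Finset (Subgroup G)) : Subgroup G :=
  ⨅ Q ∈ s, Subgroup.normalizer (Q : Set G)

theorem mem_stabOf {s : Finset (Subgroup G)} {g : G} :
    g ∈ stabOf s ↔ ∀ Q ∈ s, g ∈ Subgroup.normalizer (Q : Set G) := by
  simp [stabOf, Subgroup.mem_iInf]

theorem mem_normalizer_iInf {g : G} {s : Finset (Subgroup G)} {f : Subgroup G → Subgroup G}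
    (h : ∀ Q ∈ s, g ∈ Subgroup.normalizer (f Q : Set G)) :
    g ∈ Subgroup.normalizer ((⨅ Q ∈ s, f Q : Subgroup G) : Set G) := by
  rw [Subgroup.mem_normalizer_iff]
  intro y
  simp only [Subgroup.mem_iInf]
  exact forall₂_congr fun Q hQ => Subgroup.mem_normalizer_iff.1 (h Q hQ) y

theorem mem_normalizer_normalizer {g : G} {Q : Subgroup G}
    (h : g ∈ Subgroup.normalizer (Q : Set G)) :
    g ∈ Subgroup.normalizer ((Subgroup.normalizer (Q : Set G)) : Set G) :=
  Subgroup.le_normalizer h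

/-- The chains cancel down to the empty one. -/
theorem alt_sum_eq (hM : IsPModular p M) {x : G} (hxp : IsPElem p x) (hx1 : x ≠ 1)
    (w : Subgroup G → ℤ) [Fintype (Finset (Subgroup G))]
    [DecidablePred fun s : Finset (Subgroup G) => (s.Nonempty ∧
      (∀ Q ∈ s, ∀ R ∈ s, Q ≤ R ∨ R ≤ Q) ∧ (∀ Q ∈ s, Q ≠ ⊥ ∧ IsPGroup p Q) ∧
      ∃ T ∈ s, ∀ Q ∈ s, Q ≤ T ∧ T ≤ Subgroup.normalizer (Q : Set G)) ∧ x ∈ stabOf s] :
    ∑ s ∈ Finset.univ.filter (fun s : Finset (Subgroup G) => (s.Nonempty ∧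
      (∀ Q ∈ s, ∀ R ∈ s, Q ≤ R ∨ R ≤ Q) ∧ (∀ Q ∈ s, Q ≠ ⊥ ∧ IsPGroup p Q) ∧
      ∃ T ∈ s, ∀ Q ∈ s, Q ≤ T ∧ T ≤ Subgroup.normalizer (Q : Set G)) ∧ x ∈ stabOf s),
        (-1 : ℤ) ^ (s.card - 1) * w (Subgroup.centralizer ({x} : Set G) ⊓ stabOf s) =
      w (Subgroup.centralizer ({x} : Set G)) := by
  classical
  haveI : Fact p.Prime := ⟨hM.1⟩
  set Cx := Subgroup.centralizer ({x} : Set G) with hCx
  set A : Finset (Finset (Subgroup G)) := Finset.univ.filter fun s =>
    (∀ Q ∈ s, ∀ R ∈ s, Q ≤ R ∨ R ≤ Q) ∧ (∀ Q ∈ s, Q ≠ ⊥ ∧ IsPGroup p Q) ∧ x ∈ stabOf s with hA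
  set f : Finset (Subgroup G) → ℤ := fun s => w (Cx ⊓ stabOf s) with hf
  have hmemA : ∀ s, s ∈ A ↔ (∀ Q ∈ s, ∀ R ∈ s, Q ≤ R ∨ R ≤ Q) ∧
      (∀ Q ∈ s, Q ≠ ⊥ ∧ IsPGroup p Q) ∧ ∀ Q ∈ s, x ∈ Subgroup.normalizer (Q : Set G) := fun s => by
    simp only [hA, Finset.mem_filter, Finset.mem_univ, true_and, mem_stabOf]
  have hZ : IsPGroup p (Subgroup.zpowers x) := IsPElem.isPGroup_zpowers hxp
  have hCxN : ∀ g ∈ Cx, g ∈ Subgroup.normalizer (Subgroup.zpowers x : Set G) := fun g hg =>
    centralizer_le_normalizer_self _ (by rw [centralizer_zpowers]; exact hg)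
  -- toggling the join with `⟨x⟩`
  set top : Finset (Subgroup G) → Subgroup G := fun s =>
    (s.filter fun Q => x ∉ Q).sup id with htop
  have hsup : ∀ s ∈ A, top s = ⊥ ∧ (∀ Q ∈ s, x ∈ Q) ∨
      (top s ∈ s ∧ x ∉ top s) := by
    intro s hs
    obtain ⟨hch, -, -⟩ := (hmemA s).1 hs
    rcases (s.filter fun Q => x ∉ Q).eq_empty_or_nonempty with h | h
    · refine Or.inl ⟨by rw [htop]; simp [h], fun Q hQ => ?_⟩
      by_contra hc
      exact Finset.notMem_empty Q (h ▸ Finset.mem_filter.2 ⟨hQ, hc⟩)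
    · obtain ⟨Q₀, hQ₀⟩ := Finset.exists_maximal h
      have he : top s = Q₀ := by
        refine le_antisymm (Finset.sup_le fun Q hQ => ?_) (Finset.le_sup (f := id) hQ₀.prop)
        rcases hch Q (Finset.mem_filter.1 hQ).1 Q₀ (Finset.mem_filter.1 hQ₀.prop).1 with h' | h'
        · exact h'
        · exact hQ₀.le_of_ge hQ h'
      rw [he]
      exact Or.inr (Finset.mem_filter.1 hQ₀.prop)
  set pick : Finset (Subgroup G) → Subgroup G := fun s => top s ⊔ Subgroup.zpowers x with hpickdef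
  have hxpick : ∀ s, x ∈ pick s := fun s => Subgroup.mem_sup_right (Subgroup.mem_zpowers x)
  have htop' : ∀ s, top (if pick s ∈ s then s.erase (pick s) else insert (pick s) s) = top s := by
    intro s
    simp only [htop]
    congr 1
    ext Q
    simp only [Finset.mem_filter, mem_symmDiff_singleton]
    constructor
    · rintro ⟨⟨-, hQ⟩ | ⟨rfl, -⟩, hxQ⟩
      exacts [⟨hQ, hxQ⟩, absurd (hxpick s) hxQ]
    · rintro ⟨hQ, hxQ⟩
      exact ⟨Or.inl ⟨fun h => hxQ (h ▸ hxpick s), hQ⟩, hxQ⟩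
  have hallA : ∀ s ∈ A, pick s ≠ ⊥ ∧ IsPGroup p (pick s) ∧
      x ∈ Subgroup.normalizer (pick s : Set G) ∧
      (∀ Q ∈ s, Q ≤ pick s ∨ pick s ≤ Q) ∧
      ∀ g ∈ Cx, (∀ Q ∈ s, Q ≠ pick s → g ∈ Subgroup.normalizer (Q : Set G)) →
        g ∈ Subgroup.normalizer (pick s : Set G) := by
    intro s hs
    obtain ⟨hch, hp, hxN⟩ := (hmemA s).1 hs
    refine ⟨fun h => hx1 (by have := hxpick s; rwa [h, Subgroup.mem_bot] at this), ?_,
      Subgroup.le_normalizer (hxpick s), fun Q hQ => ?_, fun g hg hgN => ?_⟩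
    · rcases hsup s hs with ⟨h, -⟩ | ⟨h, -⟩
      · show IsPGroup p ↥(top s ⊔ Subgroup.zpowers x)
        rw [h, bot_sup_eq]
        exact hZ
      · exact (hp _ h).2.to_sup_of_normal_left' hZ (Subgroup.zpowers_le.2 (hxN _ h))
    · by_cases hxQ : x ∈ Q
      · refine Or.inr (sup_le ?_ (Subgroup.zpowers_le.2 hxQ))
        rcases hsup s hs with ⟨h, -⟩ | ⟨h, hn⟩
        · rw [h]; exact bot_le
        · exact (hch _ h Q hQ).resolve_right fun h' => hn (h' hxQ)
      · exact Or.inl ((Finset.le_sup (f := id) (Finset.mem_filter.2 ⟨hQ, hxQ⟩)).trans le_sup_left)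
    · refine mem_normalizer_sup ?_ (hCxN g hg)
      rcases hsup s hs with ⟨h, -⟩ | ⟨h, hn⟩
      · rw [h, Subgroup.mem_normalizer_iff]
        intro y
        simp [Subgroup.mem_bot]
      · exact hgN _ h fun he => hn (by rw [he]; exact hxpick s)
  have hA0 : ∑ s ∈ A, (-1 : ℤ) ^ s.card * f s = 0 := by
    refine sum_toggle A f pick (fun s hs => ?_) (fun s _ => ?_) (fun s hs => ?_)
    · obtain ⟨hch, hp, hxN⟩ := (hmemA s).1 hs
      obtain ⟨h1, h2, h3, h4, -⟩ := hallA s hs
      refine (hmemA _).2 ⟨fun Q hQ R hR => ?_, fun Q hQ => ?_, fun Q hQ => ?_⟩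
      · rw [mem_symmDiff_singleton] at hQ hR
        rcases hQ with ⟨-, hQ⟩ | ⟨rfl, -⟩ <;> rcases hR with ⟨-, hR⟩ | ⟨rfl, -⟩
        exacts [hch Q hQ R hR, h4 Q hQ, (h4 R hR).symm, Or.inl le_rfl]
      · rw [mem_symmDiff_singleton] at hQ
        rcases hQ with ⟨-, hQ⟩ | ⟨rfl, -⟩
        exacts [hp Q hQ, ⟨h1, h2⟩]
      · rw [mem_symmDiff_singleton] at hQ
        rcases hQ with ⟨-, hQ⟩ | ⟨rfl, -⟩
        exacts [hxN Q hQ, h3]
    · simp only [hpickdef] at htop' ⊢
      rw [htop']
    · obtain ⟨-, -, -, -, h5⟩ := hallA s hs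
      refine congrArg w (SetLike.ext fun g => ?_)
      simp only [Subgroup.mem_inf, mem_stabOf]
      refine and_congr_right fun hg => ⟨fun h Q hQ => ?_, fun h Q hQ => ?_⟩
      · by_cases he : Q = pick s
        · subst he
          exact h5 g hg fun R hR hne => h R (mem_symmDiff_singleton.2 (Or.inl ⟨hne, hR⟩))
        · exact h Q (mem_symmDiff_singleton.2 (Or.inl ⟨he, hQ⟩))
      · rcases mem_symmDiff_singleton.1 hQ with ⟨-, hQ⟩ | ⟨rfl, -⟩
        exacts [h Q hQ, h5 g hg fun R hR _ => h R hR]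
  -- chains with a member not normal in a larger one
  set isBad : Finset (Subgroup G) → Subgroup G → Prop := fun s K =>
    K ∈ s ∧ ∃ Q ∈ s, Q ≤ K ∧ ¬ K ≤ Subgroup.normalizer (Q : Set G) with hbad
  set N : Finset (Finset (Subgroup G)) := A.filter fun s => ∃ K, isBad s K with hN
  set lowest : Finset (Subgroup G) → Subgroup G := fun s =>
    if h : ∃ K, isBad s K ∧ ∀ L, isBad s L → K ≤ L then h.choose else ⊥ with hlow
  have hlow1 : ∀ s K, isBad s K → (∀ L, isBad s L → K ≤ L) → lowest s = K := by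
    intro s K hK hmin
    simp only [hlow]
    rw [dif_pos ⟨K, hK, hmin⟩]
    have h : ∃ K, isBad s K ∧ ∀ L, isBad s L → K ≤ L := ⟨K, hK, hmin⟩
    exact le_antisymm (h.choose_spec.2 K hK) (hmin _ h.choose_spec.1)
  have hlow2 : ∀ s ∈ N, isBad s (lowest s) ∧ ∀ L, isBad s L → lowest s ≤ L := by
    intro s hs
    obtain ⟨hsA, K₀, hK₀⟩ := Finset.mem_filter.1 hs
    obtain ⟨hch, -, -⟩ := (hmemA s).1 hsA
    obtain ⟨K, hK⟩ := Finset.exists_minimal (s := s.filter (isBad s))
      ⟨K₀, Finset.mem_filter.2 ⟨hK₀.1, hK₀⟩⟩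
    have hKb := (Finset.mem_filter.1 hK.prop).2
    have hmin : ∀ L, isBad s L → K ≤ L := fun L hL => by
      rcases hch K hKb.1 L hL.1 with h | h
      · exact h
      · exact hK.le_of_le (Finset.mem_filter.2 ⟨hL.1, hL⟩) h
    rw [hlow1 s K hKb hmin]
    exact ⟨hKb, hmin⟩
  set ins : Finset (Subgroup G) → Subgroup G := fun s =>
    lowest s ⊓ ⨅ Q ∈ s.filter (· < lowest s), Subgroup.normalizer (Q : Set G) with hins
  -- the properties of the inserted member
  have hfacts : ∀ s ∈ N, (ins s < lowest s ∧ ins s ≠ ⊥) ∧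
      (∀ Q ∈ s, Q < lowest s → Q ≤ ins s ∧ ins s ≤ Subgroup.normalizer (Q : Set G)) ∧
      (∀ Q ∈ s, Q ≤ ins s ∨ ins s ≤ Q) ∧
      ∀ g : G, (∀ Q ∈ s, Q ≠ ins s → g ∈ Subgroup.normalizer (Q : Set G)) →
        g ∈ Subgroup.normalizer (ins s : Set G) := by
    intro s hs
    obtain ⟨hsA, -⟩ := Finset.mem_filter.1 hs
    obtain ⟨hch, hp, -⟩ := (hmemA s).1 hsA
    obtain ⟨⟨hKs, Q₀, hQ₀, hQ₀K, hQ₀N⟩, hmin⟩ := hlow2 s hs
    have hQ₀lt : Q₀ < lowest s := lt_of_le_of_ne hQ₀K fun h =>
      hQ₀N (by rw [← h]; exact Subgroup.le_normalizer)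
    have hlt : ins s < lowest s := lt_of_le_of_ne inf_le_left fun h => hQ₀N <| by
      refine h.symm.le.trans (inf_le_right.trans (iInf₂_le Q₀ ?_))
      exact Finset.mem_filter.2 ⟨hQ₀, hQ₀lt⟩
    have hbelow : ∀ Q ∈ s, Q < lowest s →
        Q ≤ ins s ∧ ins s ≤ Subgroup.normalizer (Q : Set G) := by
      intro Q hQ hQlt
      refine ⟨le_inf hQlt.le (le_iInf₂ fun R hR => ?_),
        inf_le_right.trans (iInf₂_le Q (Finset.mem_filter.2 ⟨hQ, hQlt⟩))⟩
      obtain ⟨hR, hRlt⟩ := Finset.mem_filter.1 hR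
      rcases hch R hR Q hQ with h | h
      · by_contra hc
        exact hQlt.not_ge (hmin Q ⟨hQ, R, hR, h, hc⟩)
      · exact h.trans Subgroup.le_normalizer
    refine ⟨⟨hlt, fun h => (hp Q₀ hQ₀).1 (le_bot_iff.1 (h ▸ (hbelow Q₀ hQ₀ hQ₀lt).1))⟩, hbelow,
      fun Q hQ => ?_, fun g hg => ?_⟩
    · by_cases hQK : Q < lowest s
      · exact Or.inl (hbelow Q hQ hQK).1
      · refine Or.inr (hlt.le.trans ?_)
        rcases hch (lowest s) hKs Q hQ with h | h
        · exact h
        · exact (eq_of_le_of_not_lt h hQK).ge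
    · refine mem_normalizer_inf (hg _ hKs hlt.ne') ?_
      by_cases hmem : ins s ∈ s
      · -- deleting: the inserted member is determined by the others
        have hR : lowest s ⊓ (⨅ Q ∈ (s.filter (· < lowest s)).erase (ins s),
            Subgroup.normalizer (Q : Set G)) = ins s := by
          refine le_antisymm ?_ (le_inf inf_le_left (inf_le_right.trans
            (biInf_mono fun Q hQ => (Finset.mem_erase.1 hQ).2)))
          by_contra hc
          have hle : ins s ≤ lowest s ⊓ ⨅ Q ∈ (s.filter (· < lowest s)).erase (ins s),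
              Subgroup.normalizer (Q : Set G) := le_inf inf_le_left (inf_le_right.trans
            (biInf_mono fun Q hQ => (Finset.mem_erase.1 hQ).2))
          have h2 := lt_inf_normalizer hM ((hp _ hKs).2.to_le inf_le_left)
            (lt_of_le_of_ne hle fun h => hc h.ge)
          refine h2.not_ge (le_inf (inf_le_left.trans inf_le_left) (le_iInf₂ fun Q hQ => ?_))
          by_cases he : Q = ins s
          · rw [he]; exact inf_le_right
          · exact inf_le_left.trans (inf_le_right.trans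
              (iInf₂_le Q (Finset.mem_erase.2 ⟨he, hQ⟩)))
        have h3 : g ∈ Subgroup.normalizer (ins s : Set G) := by
          rw [← hR]
          refine mem_normalizer_inf (hg _ hKs hlt.ne') (mem_normalizer_iInf fun Q hQ => ?_)
          obtain ⟨hne, hQ⟩ := Finset.mem_erase.1 hQ
          exact mem_normalizer_normalizer (hg Q (Finset.mem_filter.1 hQ).1 hne)
        refine mem_normalizer_iInf fun Q hQ => mem_normalizer_normalizer ?_
        by_cases he : Q = ins s
        · rw [he]; exact h3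
        · exact hg Q (Finset.mem_filter.1 hQ).1 he
      · exact mem_normalizer_iInf fun Q hQ => mem_normalizer_normalizer
          (hg Q (Finset.mem_filter.1 hQ).1 fun he => hmem (he ▸ (Finset.mem_filter.1 hQ).1))
  have hN0 : ∑ s ∈ N, (-1 : ℤ) ^ s.card * f s = 0 := by
    have hnew : ∀ s ∈ N, lowest (if ins s ∈ s then s.erase (ins s) else insert (ins s) s) =
        lowest s ∧ isBad (if ins s ∈ s then s.erase (ins s) else insert (ins s) s) (lowest s) := by
      intro s hs
      obtain ⟨hsA, -⟩ := Finset.mem_filter.1 hs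
      obtain ⟨hch, hp, -⟩ := (hmemA s).1 hsA
      obtain ⟨⟨hlt, -⟩, hbelow, hcmp, -⟩ := hfacts s hs
      obtain ⟨⟨hKs, Q₀, hQ₀, hQ₀K, hQ₀N⟩, hmin⟩ := hlow2 s hs
      set s' := if ins s ∈ s then s.erase (ins s) else insert (ins s) s with hs'
      have hbad' : isBad s' (lowest s) := by
        refine ⟨mem_symmDiff_singleton.2 (Or.inl ⟨hlt.ne', hKs⟩), ?_⟩
        by_cases he : Q₀ = ins s
        · -- some other member is not normal
          by_contra hno
          push Not at hno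
          have hins' : ins s = lowest s ⊓ Subgroup.normalizer (ins s : Set G) := by
            refine le_antisymm (le_inf hlt.le Subgroup.le_normalizer)
              (le_inf inf_le_left (le_iInf₂ fun Q hQ => ?_))
            obtain ⟨hQ, hQlt⟩ := Finset.mem_filter.1 hQ
            by_cases hQe : Q = ins s
            · rw [hQe]; exact inf_le_right
            · exact inf_le_left.trans
                (hno Q (mem_symmDiff_singleton.2 (Or.inl ⟨hQe, hQ⟩)) hQlt.le)
          exact (lt_inf_normalizer hM (hp _ hKs).2 hlt).ne hins'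
        · exact ⟨Q₀, mem_symmDiff_singleton.2 (Or.inl ⟨he, hQ₀⟩), hQ₀K, hQ₀N⟩
      refine ⟨hlow1 _ _ hbad' fun L hL => ?_, hbad'⟩
      obtain ⟨hLs', Q, hQs', hQL, hQN⟩ := hL
      by_contra hc
      rcases mem_symmDiff_singleton.1 hLs' with ⟨-, hLs⟩ | ⟨rfl, -⟩
      · have hLlt : L < lowest s :=
          lt_of_le_of_ne ((hch L hLs _ hKs).resolve_right hc) fun h => hc h.ge
        rcases mem_symmDiff_singleton.1 hQs' with ⟨-, hQs⟩ | ⟨rfl, -⟩
        · exact hLlt.not_ge (hmin L ⟨hLs, Q, hQs, hQL, hQN⟩)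
        · exact hQN (le_antisymm (hbelow L hLs hLlt).1 hQL ▸ Subgroup.le_normalizer)
      · rcases mem_symmDiff_singleton.1 hQs' with ⟨-, hQs⟩ | ⟨rfl, -⟩
        · exact hQN (hbelow Q hQs (hQL.trans_lt hlt)).2
        · exact hQN Subgroup.le_normalizer
    refine sum_toggle N f ins (fun s hs => ?_) (fun s hs => ?_) (fun s hs => ?_)
    · obtain ⟨hsA, -⟩ := Finset.mem_filter.1 hs
      obtain ⟨hch, hp, hxN⟩ := (hmemA s).1 hsA
      obtain ⟨⟨hlt, hne⟩, -, hcmp, hst⟩ := hfacts s hs
      refine Finset.mem_filter.2 ⟨(hmemA _).2 ⟨fun Q hQ R hR => ?_, fun Q hQ => ?_,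
        fun Q hQ => ?_⟩, _, (hnew s hs).2⟩
      · rw [mem_symmDiff_singleton] at hQ hR
        rcases hQ with ⟨-, hQ⟩ | ⟨rfl, -⟩ <;> rcases hR with ⟨-, hR⟩ | ⟨rfl, -⟩
        exacts [hch Q hQ R hR, hcmp Q hQ, (hcmp R hR).symm, Or.inl le_rfl]
      · rw [mem_symmDiff_singleton] at hQ
        rcases hQ with ⟨-, hQ⟩ | ⟨rfl, -⟩
        exacts [hp Q hQ, ⟨hne, ((hp _ (hlow2 s hs).1.1).2).to_le hlt.le⟩]
      · rw [mem_symmDiff_singleton] at hQ
        rcases hQ with ⟨-, hQ⟩ | ⟨rfl, -⟩
        exacts [hxN Q hQ, hst x fun R hR _ => hxN R hR]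
    · obtain ⟨⟨hlt, -⟩, hbelow, -, -⟩ := hfacts s hs
      have hpK := ((hmemA s).1 (Finset.mem_filter.1 hs).1).2.1 _ (hlow2 s hs).1.1
      set s' := if ins s ∈ s then s.erase (ins s) else insert (ins s) s with hs'
      show lowest s' ⊓ (⨅ Q ∈ s'.filter (· < lowest s'), Subgroup.normalizer (Q : Set G)) = ins s
      rw [(hnew s hs).1]
      set R' := lowest s ⊓ ⨅ Q ∈ s'.filter (· < lowest s), Subgroup.normalizer (Q : Set G) with hR'
      have hle : ins s ≤ R' := le_inf hlt.le <| le_iInf₂ fun Q hQ => by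
        obtain ⟨hQ, hQlt⟩ := Finset.mem_filter.1 hQ
        rcases mem_symmDiff_singleton.1 hQ with ⟨-, hQ⟩ | ⟨rfl, -⟩
        exacts [(hbelow Q hQ hQlt).2, Subgroup.le_normalizer]
      by_contra hne
      refine (lt_inf_normalizer hM (hpK.2.to_le inf_le_left)
        (lt_of_le_of_ne hle (Ne.symm hne))).not_ge
        (le_inf (inf_le_left.trans inf_le_left) (le_iInf₂ fun Q hQ => ?_))
      obtain ⟨hQ, hQlt⟩ := Finset.mem_filter.1 hQ
      by_cases hQe : Q = ins s
      · rw [hQe]; exact inf_le_right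
      · exact inf_le_left.trans (inf_le_right.trans (iInf₂_le Q
          (Finset.mem_filter.2 ⟨mem_symmDiff_singleton.2 (Or.inl ⟨hQe, hQ⟩), hQlt⟩)))
    · obtain ⟨-, -, -, hst⟩ := hfacts s hs
      refine congrArg w (SetLike.ext fun g => ?_)
      simp only [Subgroup.mem_inf, mem_stabOf]
      refine and_congr_right fun hg => ⟨fun h Q hQ => ?_, fun h Q hQ => ?_⟩
      · by_cases he : Q = ins s
        · subst he
          exact hst g fun R hR hne => h R (mem_symmDiff_singleton.2 (Or.inl ⟨hne, hR⟩))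
        · exact h Q (mem_symmDiff_singleton.2 (Or.inl ⟨he, hQ⟩))
      · rcases mem_symmDiff_singleton.1 hQ with ⟨-, hQ⟩ | ⟨rfl, -⟩
        exacts [h Q hQ, hst g fun R hR _ => h R hR]
  -- the remaining chains
  rw [← Finset.sum_filter_add_sum_filter_not A (fun s => ∃ K, isBad s K)] at hA0
  rw [show A.filter (fun s => ∃ K, isBad s K) = N from rfl, hN0, zero_add] at hA0
  have hempty : (∅ : Finset (Subgroup G)) ∈ A.filter (fun s => ¬ ∃ K, isBad s K) := by
    refine Finset.mem_filter.2 ⟨(hmemA _).2 ⟨by simp, by simp, by simp⟩, ?_⟩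
    rintro ⟨K, hK, -⟩
    simp at hK
  rw [← Finset.add_sum_erase _ _ hempty] at hA0
  have hf0 : f ∅ = w Cx := by
    simp only [hf]
    congr 1
    refine inf_eq_left.2 fun g _ => ?_
    simp [mem_stabOf]
  rw [Finset.card_empty, pow_zero, one_mul, hf0] at hA0
  rw [eq_comm, ← sub_eq_zero, ← hA0, sub_eq_add_neg, add_right_inj, ← Finset.sum_neg_distrib]
  refine Finset.sum_congr ?_ fun s hs => ?_
  · ext s
    simp only [Finset.mem_erase, Finset.mem_filter, Finset.mem_univ, true_and, hmemA, mem_stabOf]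
    constructor
    · rintro ⟨⟨hne, hch, hp, T, hT, hTop⟩, hxN⟩
      refine ⟨hne.ne_empty, ⟨hch, hp, hxN⟩, ?_⟩
      rintro ⟨K, hK, Q, hQ, -, hn⟩
      exact hn ((hTop K hK).1.trans (hTop Q hQ).2)
    · rintro ⟨hne, ⟨hch, hp, hxN⟩, hgood⟩
      have hne' := Finset.nonempty_iff_ne_empty.2 hne
      obtain ⟨T, hT⟩ := Finset.exists_maximal hne'
      have hTtop : ∀ Q ∈ s, Q ≤ T := fun Q hQ =>
        (hch Q hQ T hT.prop).elim id fun h => hT.le_of_ge hQ h
      refine ⟨⟨hne', hch, hp, T, hT.prop, fun Q hQ => ⟨hTtop Q hQ, ?_⟩⟩, hxN⟩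
      by_contra hc
      exact hgood ⟨T, hT.prop, Q, hQ, hTtop Q hQ, hc⟩
  · have hne := Finset.nonempty_iff_ne_empty.2 (Finset.mem_erase.1 hs).1
    obtain ⟨m, hm⟩ := Nat.exists_eq_succ_of_ne_zero (Finset.card_pos.2 hne).ne'
    rw [hm, Nat.succ_sub_one, pow_succ]
    simp only [hf]
    ring

end Cfsg.Agent.Lib.Block.ChainSum
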