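import Cfsg.Agent.Lib.BrauerPairs.CoveringNormalizer

/-!
# Every character of a covered block lies under the covering block
-/

set_option autoImplicit false
set_option linter.unusedSectionVars false
set_option linter.style.haveILetI false

namespace Cfsg.Agent.Lib.Block

open Cfsg Cfsg.Agent.Lib.BrauerPairs

universe u

variable {p : ℕ} {M : Ideal AlgInt} [M.IsPrime] {G : Type u} [Group G] [Finite G]
variable (K : Subgroup G) [hK : K.Normal]

instance normal_subgroupOf_top : (K.subgroupOf (⊤ : Subgroup G)).Normal := hK.subgroupOf _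

theorem mem_cosetSet_one_top {k : G} (hk : k ∈ K) :
    k ∈ cosetSet (⊤ : Subgroup G) K (1 : (⊤ : Subgroup G) ⧸ K.subgroupOf ⊤) :=
  ⟨Subgroup.mem_top k, (QuotientGroup.eq_one_iff _).2 (Subgroup.mem_subgroupOf.2 hk)⟩

theorem conj_mem_cosetSet {n : G} (hn : n ∈ K) (q : (⊤ : Subgroup G) ⧸ K.subgroupOf ⊤) (x : G) :
    n * x * n⁻¹ ∈ cosetSet ⊤ K q ↔ x ∈ cosetSet ⊤ K q := by
  have key : ∀ m ∈ K, ∀ y, y ∈ cosetSet ⊤ K q → m * y * m⁻¹ ∈ cosetSet ⊤ K q := fun m hm y hy => by
    simpa using cosetSet_mul ⊤ K (cosetSet_mul ⊤ K (mem_cosetSet_one_top K hm) hy)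
      (mem_cosetSet_one_top K (K.inv_mem hm))
  refine ⟨fun h => ?_, key n hn x⟩
  simpa [mul_assoc] using key n⁻¹ (K.inv_mem hn) _ h

theorem invUnder_restr_coset {k : Type*} [CommRing k] {n : G} (hn : n ∈ K)
    {a : MonoidAlgebra k G} (ha : InvUnder n a) (q : (⊤ : Subgroup G) ⧸ K.subgroupOf ⊤) :
    InvUnder n (restr (cosetSet ⊤ K q) a) := fun x => by
  by_cases hx : x ∈ cosetSet ⊤ K q
  · rw [coeff_restr_of_mem hx, coeff_restr_of_mem ((conj_mem_cosetSet K hn q x).2 hx), ha x]
  · rw [coeff_restr_of_notMem hx,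
      coeff_restr_of_notMem fun h => hx ((conj_mem_cosetSet K hn q x).1 h)]

theorem mul_restr_coset {k : Type*} [CommRing k] {X : MonoidAlgebra k G}
    (hX : ∀ x, x ∉ K → X.coeff x = 0) (a : MonoidAlgebra k G)
    (q : (⊤ : Subgroup G) ⧸ K.subgroupOf ⊤) :
    X * restr (cosetSet ⊤ K q) a = restr (cosetSet ⊤ K q) (X * a) := by
  haveI := Fintype.ofFinite G
  refine alg_ext fun x => ?_
  rw [coeff_mul_eq_sum']
  by_cases hx : x ∈ cosetSet ⊤ K q
  · rw [coeff_restr_of_mem hx, coeff_mul_eq_sum']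
    refine Finset.sum_congr rfl fun y _ => ?_
    by_cases hy : x * y⁻¹ ∈ K
    · rw [coeff_restr_of_mem (x := y) (by
        simpa [mul_assoc] using cosetSet_mul ⊤ K (mem_cosetSet_one_top K (K.inv_mem hy)) hx)]
    · rw [hX _ hy, zero_mul, zero_mul]
  · rw [coeff_restr_of_notMem hx]
    refine Finset.sum_eq_zero fun y _ => ?_
    by_cases hy : x * y⁻¹ ∈ K
    · rw [coeff_restr_of_notMem (x := y) fun h => hx (by
        simpa using cosetSet_mul ⊤ K (mem_cosetSet_one_top K hy) h), mul_zero]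
    · rw [hX _ hy, zero_mul]

/-- A nonzero invariant idempotent over `b` has a component with a unit product over `b`. -/
theorem exists_component_unit {b : Set (IrrCharacter K)} (hb : IsPBlock M b)
    {z : MonoidAlgebra (ResField M) G} (hinv : ∀ n ∈ K, cj n z = z) (hi : IsIdempotentElem z)
    (hEz : emb K (bar M b) * z = z) (h0 : z ≠ 0) :
    ∃ (q : (⊤ : Subgroup G) ⧸ K.subgroupOf ⊤) (w : MonoidAlgebra (ResField M) G),
      (∀ n ∈ K, cj n w = w) ∧
      ∃ ξ ∈ b, lam M ξ (toSub K (restr (cosetSet ⊤ K q) z * w)) ≠ 0 := by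
  classical
  by_contra hcon
  push Not at hcon
  haveI := Fintype.ofFinite G
  haveI := Fintype.ofFinite ((⊤ : Subgroup G) ⧸ K.subgroupOf ⊤)
  set comp := fun q : (⊤ : Subgroup G) ⧸ K.subgroupOf ⊤ => restr (cosetSet ⊤ K q) z with hcomp
  have hcinv : ∀ q, ∀ n ∈ K, cj n (comp q) = comp q := fun q n hn =>
    invUnder_iff_cj.1 (invUnder_restr_coset K hn (invUnder_iff_cj.2 (hinv n hn)) q)
  have hnull : ∀ q, Null K b (comp q) := fun q => ⟨hcinv q, fun w hw ξ hξ => hcon q w hw ξ hξ⟩
  have hxA : ∀ c ∈ (Finset.univ : Finset ((⊤ : Subgroup G) ⧸ K.subgroupOf ⊤)),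
      comp c = ∑ d ∈ Finset.univ, comp (c * d⁻¹) * comp d := by
    intro c _
    refine alg_ext fun x => ?_
    simp only [coeff_sum_apply, coeff_mul_eq_sum']
    rw [Finset.sum_comm]
    by_cases hx : x ∈ cosetSet ⊤ K c
    · rw [hcomp, coeff_restr_of_mem hx]
      conv_lhs => rw [← hi.eq, coeff_mul_eq_sum']
      refine Finset.sum_congr rfl fun y _ => ?_
      obtain ⟨hxT, hxc⟩ := hx
      have hy' : x * y⁻¹ ∈ cosetSet ⊤ K
          (c * ((⟨y, Subgroup.mem_top y⟩ : (⊤ : Subgroup G)) : (⊤ : Subgroup G) ⧸ K.subgroupOf ⊤)⁻¹) :=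
        ⟨Subgroup.mem_top _, by rw [← hxc]; rfl⟩
      rw [Finset.sum_eq_single
        ((⟨y, Subgroup.mem_top y⟩ : (⊤ : Subgroup G)) : (⊤ : Subgroup G) ⧸ K.subgroupOf ⊤) ?_ (by simp),
        coeff_restr_of_mem (mem_cosetSet_mk ⊤ K (Subgroup.mem_top y)), coeff_restr_of_mem hy']
      intro d _ hd
      rw [coeff_restr_of_notMem (S := cosetSet ⊤ K d) (x := y) fun h => hd h.choose_spec.symm,
        mul_zero]
    · rw [hcomp, coeff_restr_of_notMem hx]
      refine (Finset.sum_eq_zero fun y _ => Finset.sum_eq_zero fun d _ => ?_).symm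
      by_cases h1 : x * y⁻¹ ∈ cosetSet ⊤ K (c * d⁻¹)
      · by_cases h2 : y ∈ cosetSet ⊤ K d
        · exact absurd (by simpa using cosetSet_mul ⊤ K h1 h2) hx
        · rw [coeff_restr_of_notMem h2, mul_zero]
      · rw [coeff_restr_of_notMem h1, zero_mul]
  have hall := eq_zero_of_null_system (⊤ : Subgroup G) K b le_top hb Finset.univ comp
    (fun c d => comp (c * d⁻¹)) hxA (fun c _ d _ => hnull _)
    (fun c _ d _ x hx => coeff_restr_of_notMem hx) fun c _ => by
      rw [hcomp, mul_restr_coset K (fun x hx => coeff_emb_of_not_mem K _ hx), hEz]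
  refine h0 (alg_ext fun x => ?_)
  have h := congrArg (fun a : MonoidAlgebra (ResField M) G => a.coeff x)
    (hall ((⟨x, Subgroup.mem_top x⟩ : (⊤ : Subgroup G)) : (⊤ : Subgroup G) ⧸ K.subgroupOf ⊤)
      (Finset.mem_univ _))
  simpa [hcomp, coeff_restr_of_mem (mem_cosetSet_mk ⊤ K (Subgroup.mem_top x))] using h

/-- If `B` covers `b`, every member of `b` lies under a member of `B`. -/
theorem exists_over_of_covers [Fintype K] (hM : IsPModular p M) {B : Set (IrrCharacter G)}
    (hB : IsPBlock M B) {b : Set (IrrCharacter K)} (hb : IsPBlock M b)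
    (hcov : ∃ χ ∈ B, ∃ θ ∈ b, classInner (fun n : K => (χ : G → ℂ) n) (θ : K → ℂ) ≠ 0)
    {θ : IrrCharacter K} (hθ : θ ∈ b) :
    ∃ χ ∈ B, classInner (fun n : K => (χ : G → ℂ) n) (θ : K → ℂ) ≠ 0 := by
  classical
  by_contra hcon
  push Not at hcon
  set S := gClosure K ({θ} : Set (IrrCharacter K)) with hS
  set X := fromSub K (eIdem S) with hX
  have hXc : IsClassCoeff X := isClassCoeff_fromSub_gClosure K _
  have hXB : X * eIdem B = 0 := by
    refine eq_of_omega_eq (hXc.mul (isClassCoeff_eIdem B)) isClassCoeff_zero fun χ => ?_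
    rw [omega_mul χ hXc, omega_eIdem, omega_zero]
    split_ifs with hχ
    · obtain ⟨ψ, hψ⟩ := exists_constituent_restrict K χ
      rw [mul_one, hX, omega_eq_omega_of_constituent K hψ hXc (gClosure_supp K _), toSub_fromSub,
        omega_eIdem, if_neg]
      rintro ⟨g, θ', hθ', he⟩
      rw [Set.mem_singleton_iff] at hθ'
      subst hθ'
      refine hψ ?_
      rw [← he, ← Char.conjChar_restrict K (Char.isClassFunction_of_isIrr χ.2) g,
        Char.classInner_conjChar, hcon χ hχ]
    · rw [mul_zero]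
  set E := fromSub K (eIdem b) with hE
  set A := eIdem B * E with hA
  have hER : IntR M E := intR_fromSub (intR_eIdem hb)
  have hAR : IntR M A := (intR_eIdem hB).mul hER
  have hEinv : ∀ n ∈ K, InvUnder n E := fun n hn x => by
    by_cases hx : x ∈ K
    · rw [hE, coeff_fromSub_of_mem K _ hx, coeff_fromSub_of_mem K _ (hK.conj_mem x hx n)]
      exact isClassCoeff_eIdem b ⟨n, hn⟩ ⟨x, hx⟩
    · rw [hE, coeff_fromSub_of_not_mem K _ hx, coeff_fromSub_of_not_mem]
      exact fun h => hx (by simpa [mul_assoc] using hK.conj_mem _ h n⁻¹)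
  have hAinv : ∀ n ∈ K, InvUnder n A := fun n hn => invUnder_iff_commute.2
    ((invUnder_iff_commute.1 (isClassCoeff_eIdem B n)).mul_right
      (invUnder_iff_commute.1 (hEinv n hn)))
  have hAF : toF M A = bar M B * emb K (bar M b) := by
    rw [hA, toF_mul (intR_eIdem hB) hER]
    congr 1
    refine alg_ext fun x => ?_
    by_cases hx : x ∈ K
    · rw [coeff_toF, hE, coeff_fromSub_of_mem K _ hx, coeff_emb_of_mem K _ hx, coeff_bar,
        coeff_eIdem]
    · rw [coeff_toF, hE, coeff_fromSub_of_not_mem K _ hx, coeff_emb_of_not_mem K _ hx, redC_zero]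
  have hcomm : Commute (bar M B) (emb K (bar M b)) := (isClassCoeff_bar B).commute _
  have hEE : emb K (bar M b) * emb K (bar M b) = emb K (bar M b) := by
    rw [← map_mul, (isIdempotentElem_bar hb).eq]
  obtain ⟨q, w, hw, ξ, hξ, hne⟩ := exists_component_unit K hb (z := toF M A)
    (fun n hn => invUnder_iff_cj.1 (invUnder_toF (hAinv n hn)))
    (by rw [hAF]; exact (isIdempotentElem_bar hB).mul_of_commute hcomm hEE)
    (by rw [hAF, ← mul_assoc, ← hcomm.eq, mul_assoc, hEE])
    (by rw [hAF]; exact (covers_iff K hM hB hb).1 hcov)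
  set P := restr (cosetSet ⊤ K q) A with hP
  have hPR : IntR M P := intR_restr _ hAR
  have hwR : IntR M (liftA w) := intR_liftA w
  have hwinv : ∀ n ∈ K, InvUnder n (liftA w) := fun n hn x => by
    have := invUnder_iff_cj.2 (hw n hn) x
    simp only [liftA, coeff_ofFun, this]
  set Z := toSub K (P * liftA w) with hZ
  have hZc : IsClassCoeff Z := isClassCoeff_toSub_of_invUnder fun n hn => invUnder_iff_commute.2
    ((invUnder_iff_commute.1 (invUnder_restr_coset K hn (hAinv n hn) q)).mul_right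
      (invUnder_iff_commute.1 (hwinv n hn)))
  have hlam : lam M θ (toF M Z) ≠ 0 := by
    rw [lam_congr (sameBlock_of_mem hb hθ hξ), hZ, toF_toSub, toF_mul hPR hwR, toF_liftA, hP,
      toF_restr]
    exact hne
  refine hlam ?_
  rw [lam_toF θ hZc (intR_toSub (hPR.mul hwR))]
  have h0 : Z * eIdem S = 0 := by
    rw [hZ, show eIdem S = toSub K X from (toSub_fromSub K _).symm,
      ← toSub_mul_of_supp K _ (gClosure_supp K _), ← (hXc.commute _).eq, ← mul_assoc, hP,
      mul_restr_coset K (gClosure_supp K _), hA, ← mul_assoc, hXB, zero_mul]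
    refine alg_ext fun x => ?_
    rw [coeff_toSub]
    have hzero : restr (cosetSet ⊤ K q) (0 : MonoidAlgebra ℂ G) = 0 := alg_ext fun y => by
      simp [coeff_restr]
    simp [hzero]
  have h1 := congrArg (omega (θ : K → ℂ)) h0
  rw [omega_mul θ hZc, omega_eIdem, if_pos (subset_gClosure K _ (Set.mem_singleton θ)), mul_one,
    omega_zero] at h1
  rw [h1, redC_zero]

end Cfsg.Agent.Lib.Block
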