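import Cfsg.Agent.Lib.Block.Contrib
import Cfsg.Agent.Lib.CyclicDefect.Structure
import Cfsg.Agent.Lib.BrauerPairs.Maximal

/-!
# The lattice of regular restrictions of a block with cyclic defect group

It has a basis of signed ordinary members whose Gram matrix is the identity minus a multiple of the
all-ones matrix.
-/

namespace Cfsg.Agent.Lib.Block

open Cfsg Cfsg.Agent.Lib.BrauerPairs
open scoped ComplexConjugate

set_option linter.unusedSectionVars false
set_option linter.style.haveILetI false

universe u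

variable {p : ℕ} {M : Ideal AlgInt} [M.IsPrime] {G : Type u} [Group G] [Finite G]

open scoped Classical in
/-- A block with nontrivial cyclic defect group of order `q = e r + 1` has `e + r` members, and a
basis of `e` regular restrictions with Gram matrix `I - (r / q) J`. -/
theorem exists_cyclic_lattice [Fintype G] (hM : IsPModular p M) {B : Set (IrrCharacter G)}
    (hB : IsPBlock M B) {D : Subgroup G} (hD : IsDefectGroup p M B D) (hcyc : IsCyclic D)
    (hD1 : D ≠ ⊥) :
    ∃ (e r : ℕ) (W : Fin e → G → ℂ) (dm : IrrCharacter G → Fin e → ℤ),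
      0 < r ∧ 0 < e ∧ e * r + 1 = Nat.card D ∧ Nat.card B = e + r ∧ LinearIndependent ℂ W ∧
      (∀ ψ ∈ B, pRegularPart p (ψ : G → ℂ) = ∑ i, (dm ψ i : ℂ) • W i) ∧
      (∀ i g, p ∣ orderOf g → W i g = 0) ∧
      ∀ i j, (Nat.card D : ℂ) * classInner (W i) (W j) =
        (if i = j then (Nat.card D : ℂ) else 0) - (r : ℂ) := by
  haveI : Fact p.Prime := ⟨hM.1⟩
  obtain ⟨f, hf⟩ := exists_pair_on_defect hM hB hD
  have hmax := isMaximal_of_card hM hf (IsDefectGroup.props hM hB hD).2.1
  obtain ⟨S⟩ := CyclicDefect.exists_setup hM hmax hcyc hD1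
  obtain ⟨hrank, -, X, Y, hBXY, hdisj, hXc, hYc, -, δ, δ₀, hδ, hδ₀, hrel, -, -⟩ := S.exists_structure
  have hqm : S.m * S.r + 1 = Nat.card D := by rw [S.card_P, S.m_mul_r_add]
  let σ : Fin S.m ≃ X := (finCongr hXc.symm).trans (Finite.equivFin X).symm
  let W : Fin S.m → G → ℂ := fun i =>
    (δ (σ i).1 : ℂ) • pRegularPart p ((σ i).1 : G → ℂ)
  let dm : IrrCharacter G → Fin S.m → ℤ := fun ψ i =>
    if ψ ∈ X then (if (σ i).1 = ψ then δ ψ else 0) else -δ₀
  have hδ₀2 : (δ₀ : ℂ) * δ₀ = 1 := by rcases hδ₀ with rfl | rfl <;> norm_num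
  have hdm : ∀ ψ ∈ B, pRegularPart p (ψ : G → ℂ) = ∑ i, (dm ψ i : ℂ) • W i := by
    intro ψ hψ
    by_cases hX : ψ ∈ X
    · simp only [dm, if_pos hX, W, apply_ite (Int.cast : ℤ → ℂ), Int.cast_zero]
      rw [Finset.sum_eq_single (σ.symm ⟨ψ, hX⟩)]
      · simp only [Equiv.apply_symm_apply, if_true, smul_smul]
        rcases hδ ψ hX with h | h <;> simp [h]
      · intro i _ hi
        rw [if_neg fun h => hi (σ.injective (Subtype.ext (by simpa using h))), zero_smul]
      · simp
    · have hY : ψ ∈ Y := (hBXY.le hψ).resolve_left hX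
      funext g
      simp only [dm, if_neg hX, W, Finset.sum_apply, Pi.smul_apply, smul_eq_mul, Int.cast_neg,
        pRegularPart_apply]
      by_cases hg : p ∣ orderOf g
      · simp [hg]
      · simp only [if_neg hg]
        have h := hrel ψ hY g hg
        rw [← Set.toFinite X |>.coe_toFinset, finsum_mem_coe_finset] at h
        have e : ∑ i : Fin S.m, (δ (σ i).1 : ℂ) * ((σ i).1 : G → ℂ) g =
            ∑ χ ∈ (Set.toFinite X).toFinset, (δ χ : ℂ) * (χ : G → ℂ) g := by
          rw [σ.sum_comp fun c : X => (δ c.1 : ℂ) * (c.1 : G → ℂ) g]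
          exact (Finset.sum_subtype _ (fun χ => Set.Finite.mem_toFinset _)
            fun χ => (δ χ : ℂ) * (χ : G → ℂ) g).symm
        rw [← Finset.mul_sum, e]
        linear_combination (δ₀ : ℂ) * h - (ψ : G → ℂ) g * hδ₀2
  have hspan : regSpan p B ≤ Submodule.span ℂ (Set.range W) := by
    refine Submodule.span_le.2 ?_
    rintro _ ⟨ψ, hψ, rfl⟩
    exact (Submodule.mem_span_range_iff_exists_fun ℂ).2 ⟨_, (hdm ψ hψ).symm⟩
  have hWmem : ∀ i, W i ∈ regSpan p B := fun i =>
    Submodule.smul_mem _ _ (Submodule.subset_span ⟨_, hBXY.ge (Or.inl (σ i).2), rfl⟩)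
  have hli : LinearIndependent ℂ W := by
    rw [linearIndependent_iff_card_eq_finrank_span, Fintype.card_fin, Set.finrank,
      show Submodule.span ℂ (Set.range W) = regSpan p B from
        le_antisymm (Submodule.span_le.2 (Set.range_subset_iff.2 hWmem)) hspan,
      finrank_regSpan, hrank]
  refine ⟨S.m, S.r, W, dm, S.r_pos, S.m_pos, hqm, by rw [S.card_block, hrank], hli, hdm,
    fun i g hg => by simp [W, pRegularPart_apply, hg], ?_⟩
  -- the projection identity in this basis
  have hsum : ∀ i, W i = ∑ ψ : IrrCharacter G,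
      if ψ ∈ B then classInner (W i) (pRegularPart p (ψ : G → ℂ)) • pRegularPart p (ψ : G → ℂ)
        else 0 := by
    intro i
    funext g
    by_cases hg : p ∣ orderOf g
    · rw [Finset.sum_apply, Finset.sum_eq_zero]
      · simp [W, pRegularPart_apply, hg]
      · intro ψ _
        split_ifs <;> simp [pRegularPart_apply, hg]
    · have h := congrFun (pRegularPart_eq_sum hM hB (η := (σ i).1) (hBXY.ge (Or.inl (σ i).2))) g
      simp only [W, Pi.smul_apply, h, Finset.sum_apply, smul_eq_mul, Finset.mul_sum]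
      refine Finset.sum_congr rfl fun ψ _ => ?_
      split_ifs
      · simp only [Pi.smul_apply, smul_eq_mul, Char.classInner_smul_left, classInner_pRegularPart,
          pRegularPart_apply, if_neg hg]
        ring
      · simp
  -- the members of `Y` all restrict to minus the signed sum
  have hYW : ∀ ψ ∈ Y, pRegularPart p (ψ : G → ℂ) = (-(δ₀ : ℂ)) • ∑ k, W k := by
    intro ψ hψ
    have hX : ψ ∉ X := fun h => Set.disjoint_left.1 hdisj h hψ
    rw [hdm ψ (hBXY.ge (Or.inr hψ)), Finset.smul_sum]
    simp [dm, hX]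
  intro i j
  set a : Fin S.m → Fin S.m → ℂ := fun i k => classInner (W i) (W k) with ha
  have hXterm : ∀ k : Fin S.m,
      classInner (W i) (pRegularPart p ((σ k).1 : G → ℂ)) • pRegularPart p ((σ k).1 : G → ℂ) =
        a i k • W k := by
    intro k
    simp only [ha, W, Char.classInner_smul_right, map_intCast, smul_smul]
    congr 1
    rcases hδ _ (σ k).2 with h | h <;> rw [h] <;> push_cast <;> ring
  have hexp : W i = ∑ k, (a i k + (S.r : ℂ) * ∑ l, a i l) • W k := by
    conv_lhs => rw [hsum i]
    rw [Finset.sum_ite, Finset.sum_const_zero, add_zero,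
      show (Finset.univ.filter fun ψ : IrrCharacter G => ψ ∈ B) =
        (Set.toFinite X).toFinset ∪ (Set.toFinite Y).toFinset by ext; simp [hBXY],
      Finset.sum_union (Finset.disjoint_left.2 fun ψ h h' =>
        Set.disjoint_left.1 hdisj ((Set.Finite.mem_toFinset _).1 h) ((Set.Finite.mem_toFinset _).1 h'))]
    simp only [add_smul, Finset.sum_add_distrib, ← Finset.smul_sum]
    congr 1
    · rw [Finset.sum_subtype _ (fun χ => Set.Finite.mem_toFinset (Set.toFinite X)),
        ← σ.sum_comp]
      exact Finset.sum_congr rfl fun k _ => hXterm k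
    · rw [Finset.sum_congr rfl fun ψ (hψ : ψ ∈ (Set.toFinite Y).toFinset) => show classInner (W i) (pRegularPart p (ψ : G → ℂ)) •
          pRegularPart p (ψ : G → ℂ) = (∑ l, a i l) • ∑ k, W k by
        rw [hYW ψ ((Set.Finite.mem_toFinset _).1 hψ), Char.classInner_smul_right,
          Char.classInner_sum_right, smul_smul]
        congr 1
        simp only [map_neg, map_intCast, ha]
        linear_combination (∑ l, classInner (W i) (W l)) * hδ₀2,
        Finset.sum_const, ← Set.ncard_eq_toFinset_card, ← Nat.card_coe_set_eq, hYc,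
        ← Nat.cast_smul_eq_nsmul ℂ, smul_smul]
  have hcoef : ∀ k, a i k + (S.r : ℂ) * ∑ l, a i l = if k = i then 1 else 0 := by
    intro k
    refine sub_eq_zero.1 (Fintype.linearIndependent_iff.1 hli
      (fun k => a i k + (S.r : ℂ) * ∑ l, a i l - if k = i then 1 else 0) ?_ k)
    simp only [sub_smul, Finset.sum_sub_distrib, ← hexp, ite_smul, one_smul, zero_smul,
      Finset.sum_ite_eq', Finset.mem_univ, if_true, sub_self]
  have hs : (Nat.card D : ℂ) * ∑ l, a i l = 1 := by
    have h := Finset.sum_congr rfl fun k (_ : k ∈ Finset.univ) => hcoef k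
    simp only [Finset.sum_add_distrib, Finset.sum_const, Finset.card_univ, Fintype.card_fin,
      nsmul_eq_mul, Finset.sum_ite_eq', Finset.mem_univ, if_true] at h
    rw [← hqm]
    push_cast
    linear_combination h
  have hj := hcoef j
  show (Nat.card D : ℂ) * a i j = _
  rcases eq_or_ne i j with rfl | hne
  · rw [if_pos rfl] at hj ⊢
    linear_combination (Nat.card D : ℂ) * hj - (S.r : ℂ) * hs
  · rw [if_neg hne.symm] at hj
    rw [if_neg hne]
    linear_combination (Nat.card D : ℂ) * hj - (S.r : ℂ) * hs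

end Cfsg.Agent.Lib.Block
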