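import Cfsg.Agent.Lib.Block.Normal
import Cfsg.Agent.Lib.Block.Apply
import Cfsg.Agent.Lib.Block.SecondMain
import Cfsg.Agent.Lib.Char.Degree

/-!
# The Fong-Reynolds correspondence

Let `b` be a block of a normal subgroup `N` and `T` its stabiliser.  Translating by the idempotent
of `b` recovers a character `ψ` of `T` over `b` from the induced one, so induction is a bijection
and respects blocks.
-/

namespace Cfsg.Agent.Lib.Block

open Cfsg
open scoped ComplexConjugate

set_option linter.unusedSectionVars false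
set_option linter.style.haveILetI false

universe u

variable {p : ℕ} {M : Ideal AlgInt} [M.IsPrime] {G : Type u} [Group G] [Finite G]
  {N : Subgroup G} [hN : N.Normal]

lemma fromSub_zero {H : Subgroup G} : fromSub H (0 : MonoidAlgebra ℂ H) = 0 :=
  alg_ext fun x => by
    by_cases hx : x ∈ H
    · rw [coeff_fromSub_of_mem H _ hx]; simp
    · rw [coeff_fromSub_of_not_mem H _ hx]; simp

lemma eIdem_empty {H : Type*} [Group H] [Finite H] :
    eIdem (∅ : Set (IrrCharacter H)) = 0 := by
  classical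
  refine eq_of_omega_eq (isClassCoeff_eIdem _) isClassCoeff_zero fun χ => ?_
  rw [omega_eIdem, omega_zero, if_neg (Set.notMem_empty χ)]

variable (N) in
/-- The idempotent of a set of characters of `N`, in the group algebra of `G`. -/
noncomputable def nIdem (b : Set (IrrCharacter N)) : MonoidAlgebra ℂ G := fromSub N (eIdem b)

variable (N) in
/-- The stabiliser condition of a subgroup. -/
def IsStab (b : Set (IrrCharacter N)) (T : Subgroup G) : Prop :=
  ∀ g : G, g ∈ T ↔ ∀ θ ∈ b, conjIrr N g θ ∈ b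

theorem isStab_of (b : Set (IrrCharacter N)) {T : Subgroup G}
    (hT : ∀ g : G, g ∈ T ↔ ∀ θ ∈ b, ∀ θ' : IrrCharacter N, (∀ n : N, (θ' : N → ℂ) n =
      (θ : N → ℂ) ⟨g * n * g⁻¹, hN.conj_mem n n.2 g⟩) → θ' ∈ b) : IsStab N b T := fun g =>
  (hT g).trans ⟨fun h θ hθ => h θ hθ _ fun _ => rfl, fun h θ hθ θ' h' => by
    rw [show θ' = conjIrr N g θ from Subtype.ext (funext h')]
    exact h θ hθ⟩

variable {b : Set (IrrCharacter N)} {T : Subgroup G}

theorem conjIrr_injective (g : G) : Function.Injective (conjIrr N g) := fun θ ψ h => by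
  refine Subtype.ext (funext fun m => ?_)
  have := congrArg (fun f => Char.conjChar N g⁻¹ f m) (congrArg Subtype.val h)
  simpa only [conjIrr, ← Char.conjChar_mul, mul_inv_cancel, Char.conjChar_one] using this

theorem blockCoeff_image_conjIrr (g : G) (b : Set (IrrCharacter N)) (n : N) :
    blockCoeff (conjIrr N g '' b) n =
      blockCoeff b (⟨g * n * g⁻¹, hN.conj_mem n n.2 g⟩ : N) := by
  classical
  haveI := Fintype.ofFinite N
  rw [blockCoeff_eq_sum, blockCoeff_eq_sum]
  congr 1
  refine (Fintype.sum_bijective (conjIrr N g)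
    (Finite.injective_iff_bijective.1 (conjIrr_injective g)) _ _ fun θ => ?_).symm
  simp only [(conjIrr_injective g).mem_set_image]
  simp only [conjIrr, Char.conjChar_apply_one]
  rfl

theorem image_conjIrr_of_mem (hT : IsStab N b T) {t : G} (ht : t ∈ T) :
    conjIrr N t '' b = b :=
  Set.eq_of_subset_of_ncard_le (Set.image_subset_iff.2 fun θ hθ => (hT t).1 ht θ hθ)
    (by rw [Set.ncard_image_of_injective b (conjIrr_injective t)]) (Set.toFinite b)

theorem inter_image_conjIrr_eq_empty (hb : IsPBlock M b) (hT : IsStab N b T) {g : G}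
    (hg : g ∉ T) : b ∩ conjIrr N g '' b = ∅ := by
  rw [Set.eq_empty_iff_forall_notMem]
  rintro _ ⟨h1, θ, hθ, rfl⟩
  refine hg ((hT g).2 fun η hη => ?_)
  exact (mem_iff_sameBlock hb h1).2 (sameBlock_conjIrr N g (sameBlock_of_mem hb hθ hη))

theorem coeff_nIdem_conj (g : G) (b : Set (IrrCharacter N)) (x : G) :
    (nIdem N b).coeff (g * x * g⁻¹) = (nIdem N (conjIrr N g '' b)).coeff x := by
  by_cases hx : x ∈ N
  · rw [nIdem, nIdem, coeff_fromSub_of_mem N _ hx,
      coeff_fromSub_of_mem N _ (hN.conj_mem x hx g), coeff_eIdem, coeff_eIdem,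
      blockCoeff_image_conjIrr g b ⟨x, hx⟩]
  · rw [nIdem, nIdem, coeff_fromSub_of_not_mem N _ hx, coeff_fromSub_of_not_mem]
    intro h
    exact hx (by simpa [mul_assoc] using hN.conj_mem _ h g⁻¹)

theorem invUnder_nIdem (hT : IsStab N b T) {t : G} (ht : t ∈ T) : InvUnder t (nIdem N b) :=
  fun x => by rw [coeff_nIdem_conj, image_conjIrr_of_mem hT ht]

theorem nIdem_supp (hNT : N ≤ T) (x : G) (hx : x ∉ T) : (nIdem N b).coeff x = 0 :=
  coeff_fromSub_of_not_mem N _ fun h => hx (hNT h)

theorem isClassCoeff_toSub_nIdem (hT : IsStab N b T) : IsClassCoeff (toSub T (nIdem N b)) :=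
  isClassCoeff_toSub_of_invUnder fun _ hu => invUnder_nIdem hT hu

theorem nIdem_mul_nIdem (b b' : Set (IrrCharacter N)) :
    nIdem N b * nIdem N b' = nIdem N (b ∩ b') := by
  haveI := Fintype.ofFinite G
  haveI := Fintype.ofFinite N
  rw [nIdem, nIdem, nIdem, ← fromSub_mul, eIdem_mul_eIdem]

theorem toSub_nIdem_idem (hNT : N ≤ T) :
    toSub T (nIdem N b) * toSub T (nIdem N b) = toSub T (nIdem N b) := by
  rw [← toSub_mul_of_supp T _ (nIdem_supp hNT), nIdem_mul_nIdem, Set.inter_self]

/-- `ψ` lies over `b`. -/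
def IsOver (b : Set (IrrCharacter N)) (ψ : IrrCharacter T) : Prop :=
  omega (ψ : T → ℂ) (toSub T (nIdem N b)) = 1

open scoped Classical in
theorem omega_toSub_nIdem [Fintype N] (hT : IsStab N b T) (hNT : N ≤ T) (ψ : IrrCharacter T) :
    omega (ψ : T → ℂ) (toSub T (nIdem N b)) =
      if (∃ θ ∈ b, classInner (fun n : N => (ψ : T → ℂ) ⟨(n : G), hNT n.2⟩) (θ : N → ℂ) ≠ 0)
        then 1 else 0 := by
  haveI := Fintype.ofFinite T
  set f : N → ℂ := fun n => (ψ : T → ℂ) ⟨(n : G), hNT n.2⟩
  have hf : IsCharacter N f :=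
    Char.isCharacter_comp (Char.isCharacter_of_isIrr ψ.2) (Subgroup.inclusion hNT)
  choose m hm using fun θ : IrrCharacter N =>
    Char.classInner_natCast hf (Char.isCharacter_of_isIrr θ.2)
  have hpair : pair (ψ : T → ℂ) (toSub T (nIdem N b)) =
      ((∑ θ : IrrCharacter N, if θ ∈ b then m θ * charDegree (θ : N → ℂ) else 0 : ℕ) : ℂ) := by
    have h1 : pair (ψ : T → ℂ) (toSub T (nIdem N b)) = pair f (eIdem b) := by
      rw [pair_eq_sum, pair_eq_sum]
      refine (Finset.sum_of_injOn (fun n : N => (⟨(n : G), hNT n.2⟩ : T)) ?_ ?_ ?_ ?_).symm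
      · intro a _ c _ h; exact Subtype.ext (congrArg (fun t : T => (t : G)) h :)
      · intro a _; exact Finset.mem_coe.2 (Finset.mem_univ _)
      · intro t _ ht
        rw [coeff_toSub, nIdem, coeff_fromSub_of_not_mem, zero_mul]
        exact fun h => ht ⟨⟨t, h⟩, Finset.mem_coe.2 (Finset.mem_univ _), Subtype.ext rfl⟩
      · intro n _
        rw [coeff_toSub, nIdem, coeff_fromSub_of_mem N _ n.2]
    have hexp := Char.eq_sum_classInner_smul (Char.isClassFunction_of_isCharacter hf)
    rw [h1, pair_eq_sum]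
    conv_lhs => enter [2, x, 2]; rw [hexp]
    simp only [Finset.sum_apply, Pi.smul_apply, smul_eq_mul, Finset.mul_sum, hm]
    rw [Finset.sum_comm]
    push_cast
    refine Finset.sum_congr rfl fun θ _ => ?_
    have h2 := omega_eIdem b θ
    rw [omega, div_eq_iff (deg_ne_zero θ), pair_eq_sum] at h2
    rw [Finset.sum_congr rfl fun x _ => show (eIdem b).coeff x * ((m θ : ℂ) * (θ : N → ℂ) x) =
      (m θ : ℂ) * ((eIdem b).coeff x * (θ : N → ℂ) x) by ring, ← Finset.mul_sum, h2,
      irr_one_eq_natCast]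
    split_ifs <;> simp
  have hid : omega (ψ : T → ℂ) (toSub T (nIdem N b)) = 0 ∨
      omega (ψ : T → ℂ) (toSub T (nIdem N b)) = 1 := by
    have h := omega_mul ψ (isClassCoeff_toSub_nIdem hT) (toSub T (nIdem N b))
    rw [toSub_nIdem_idem hNT] at h
    exact IsIdempotentElem.iff_eq_zero_or_one.1 h.symm
  split_ifs with hex
  · refine hid.resolve_left fun h => ?_
    rw [omega, div_eq_zero_iff, hpair, Nat.cast_eq_zero] at h
    obtain ⟨θ, hθ, hθn⟩ := hex
    have := (Finset.sum_eq_zero_iff.1 (h.resolve_right (deg_ne_zero ψ))) θ (Finset.mem_univ θ)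
    rw [if_pos hθ, mul_eq_zero] at this
    refine this.elim (fun h0 => hθn ((hm θ).trans ?_)) (charDegree_pos θ).ne'
    rw [h0, Nat.cast_zero]
  · push Not at hex
    rw [omega, hpair, Finset.sum_eq_zero, Nat.cast_zero, zero_div]
    intro θ _
    split_ifs with hθ
    · have := hex θ hθ
      rw [hm θ, Nat.cast_eq_zero] at this
      rw [this, zero_mul]
    · rfl

theorem isOver_iff [Fintype N] (hT : IsStab N b T) (hNT : N ≤ T) (ψ : IrrCharacter T) :
    IsOver b ψ ↔ ∃ θ ∈ b, classInner (fun n : N => (ψ : T → ℂ) ⟨(n : G), hNT n.2⟩) (θ : N → ℂ) ≠ 0 := by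
  classical
  rw [IsOver, omega_toSub_nIdem hT hNT]
  split_ifs with h <;> simp [h]

/-- The members of a block of `T` lie over `b` together. -/
theorem isOver_of_sameBlock [Fintype N] (hb : IsPBlock M b) (hT : IsStab N b T) (hNT : N ≤ T)
    {ψ ψ' : IrrCharacter T} (h : SameBlock M (ψ : T → ℂ) (ψ' : T → ℂ)) (hψ : IsOver b ψ) :
    IsOver b ψ' := by
  classical
  have h1 := redC_omega_eq_of_sameBlock h (isClassCoeff_toSub_nIdem hT)
    (intR_toSub (intR_fromSub (intR_eIdem hb) : IntR M (nIdem N b)))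
  rw [hψ, redC_one, omega_toSub_nIdem hT hNT] at h1
  rw [IsOver, omega_toSub_nIdem hT hNT]
  split_ifs with hex
  · rfl
  · rw [if_neg hex, redC_zero] at h1
    exact absurd h1 one_ne_zero

variable [Fintype G] [Fintype T]

/-- Translating the induced character by the idempotent of `b` gives back `ψ`. -/
theorem pair_indFun_nIdem (hb : IsPBlock M b) (hT : IsStab N b T) (hNT : N ≤ T)
    {ψ : IrrCharacter T} (hψ : IsOver b ψ) {t : G} (ht : t ∈ T) :
    pair (indFun T (ψ : T → ℂ)) (nIdem N b * MonoidAlgebra.single t 1) = (ψ : T → ℂ) ⟨t, ht⟩ := by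
  classical
  have hψpair : ∀ z : MonoidAlgebra ℂ T,
      pair (ψ : T → ℂ) (toSub T (nIdem N b) * z) = pair (ψ : T → ℂ) z := fun z => by
    rw [pair_mul_of_class ψ.2 (isClassCoeff_toSub_nIdem hT), hψ, one_mul]
  have key : ∀ x : G, (∑ k : G, (nIdem N b).coeff k *
      extendByZero T (ψ : T → ℂ) (x⁻¹ * (k * t) * x)) = if x ∈ T then (ψ : T → ℂ) ⟨t, ht⟩ else 0 := by
    intro x
    set t' := x⁻¹ * t * x with ht'
    rw [← Equiv.sum_comp (MulAut.conj x).toEquiv]
    rw [Finset.sum_congr rfl fun m _ => show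
      (nIdem N b).coeff ((MulAut.conj x).toEquiv m) *
          extendByZero T (ψ : T → ℂ) (x⁻¹ * ((MulAut.conj x).toEquiv m * t) * x) =
        (nIdem N (conjIrr N x '' b)).coeff m * extendByZero T (ψ : T → ℂ) (m * t') by
      rw [MulEquiv.toEquiv_eq_coe, MulEquiv.coe_toEquiv, MulAut.conj_apply, coeff_nIdem_conj, ht']
      congr 2
      group]
    by_cases hx : x ∈ T
    · have ht'T : t' ∈ T := T.mul_mem (T.mul_mem (T.inv_mem hx) ht) hx
      rw [if_pos hx, image_conjIrr_of_mem hT hx]
      have h1 : pair (ψ : T → ℂ) (toSub T (nIdem N b) * MonoidAlgebra.single ⟨t', ht'T⟩ 1) =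
          ∑ m : G, (nIdem N b).coeff m * extendByZero T (ψ : T → ℂ) (m * t') := by
        rw [pair_eq_sum, ← Equiv.sum_comp (Equiv.mulRight (⟨t', ht'T⟩ : T))]
        simp only [Equiv.coe_mulRight, MonoidAlgebra.coeff_mul_single_apply, mul_inv_cancel_right,
          mul_one, coeff_toSub]
        refine Finset.sum_of_injOn (fun k : T => (k : G)) ?_ ?_ ?_ ?_
        · intro a _ c _ h; exact Subtype.ext h
        · intro a _; exact Finset.mem_coe.2 (Finset.mem_univ _)
        · intro m _ hm
          rw [nIdem_supp hNT m (fun h => hm ⟨⟨m, h⟩, Finset.mem_coe.2 (Finset.mem_univ _), rfl⟩),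
            zero_mul]
        · intro k _
          rw [Char.extendByZero_mem T _ (T.mul_mem k.2 ht'T)]
          rfl
      rw [← h1, hψpair, pair_single, one_mul]
      have := Char.isClassFunction_of_isIrr ψ.2 ⟨t', ht'T⟩ ⟨x, hx⟩
      rw [← this]
      congr 1
      refine congrArg _ (Subtype.ext ?_)
      simp only [Subgroup.coe_mul, InvMemClass.coe_inv, ht']
      group
    · rw [if_neg hx]
      by_cases ht'T : t' ∈ T
      · have h1 : pair (ψ : T → ℂ)
            (toSub T (nIdem N (conjIrr N x '' b)) * MonoidAlgebra.single ⟨t', ht'T⟩ 1) =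
            ∑ m : G, (nIdem N (conjIrr N x '' b)).coeff m *
              extendByZero T (ψ : T → ℂ) (m * t') := by
          rw [pair_eq_sum, ← Equiv.sum_comp (Equiv.mulRight (⟨t', ht'T⟩ : T))]
          simp only [Equiv.coe_mulRight, MonoidAlgebra.coeff_mul_single_apply, mul_inv_cancel_right,
            mul_one, coeff_toSub]
          refine Finset.sum_of_injOn (fun k : T => (k : G)) ?_ ?_ ?_ ?_
          · intro a _ c _ h; exact Subtype.ext h
          · intro a _; exact Finset.mem_coe.2 (Finset.mem_univ _)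
          · intro m _ hm
            rw [nIdem_supp hNT m (fun h => hm ⟨⟨m, h⟩, Finset.mem_coe.2 (Finset.mem_univ _), rfl⟩),
              zero_mul]
          · intro k _
            rw [Char.extendByZero_mem T _ (T.mul_mem k.2 ht'T)]
            rfl
        rw [← h1, ← hψpair, ← mul_assoc, ← toSub_mul_of_supp T _ (nIdem_supp hNT),
          nIdem_mul_nIdem, inter_image_conjIrr_eq_empty hb hT hx, nIdem, eIdem_empty, fromSub_zero,
          show toSub T (0 : MonoidAlgebra ℂ G) = 0 from alg_ext fun _ => by simp, zero_mul,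
          pair_zero]
      · refine Finset.sum_eq_zero fun m _ => ?_
        by_cases hm : m ∈ T
        · rw [Char.extendByZero_not_mem T _ fun h => ht'T ?_, mul_zero]
          simpa using T.mul_mem (T.inv_mem hm) h
        · rw [nIdem_supp hNT m hm, zero_mul]
  rw [pair_eq_sum, ← Equiv.sum_comp (Equiv.mulRight t)]
  simp only [Equiv.coe_mulRight, MonoidAlgebra.coeff_mul_single_apply, mul_inv_cancel_right,
    mul_one, indFun, Finset.mul_sum]
  rw [Finset.sum_comm]
  rw [Finset.sum_congr rfl fun x _ => show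
    (∑ k : G, (nIdem N b).coeff k * ((Nat.card T : ℂ)⁻¹ *
        extendByZero T (ψ : T → ℂ) (x⁻¹ * (k * t) * x))) =
      (Nat.card T : ℂ)⁻¹ * (if x ∈ T then (ψ : T → ℂ) ⟨t, ht⟩ else 0) by
    rw [← key x, Finset.mul_sum]
    exact Finset.sum_congr rfl fun k _ => by ring]
  rw [← Finset.mul_sum, ← Finset.sum_filter, Finset.sum_const, nsmul_eq_mul,
    ← Fintype.card_subtype, ← Nat.card_eq_fintype_card, ← mul_assoc,
    inv_mul_cancel₀ (Nat.cast_ne_zero.2 Nat.card_pos.ne'), one_mul]

/-- The multiplicities over `b` in the restriction of an induced character. -/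
theorem classInner_restrict_indFun [DecidableEq (IrrCharacter T)] (hb : IsPBlock M b)
    (hT : IsStab N b T) (hNT : N ≤ T) {ψ : IrrCharacter T} (hψ : IsOver b ψ) (φ : IrrCharacter T) :
    classInner (fun t : T => indFun T (ψ : T → ℂ) t) (φ : T → ℂ) *
      omega (φ : T → ℂ) (toSub T (nIdem N b)) = if ψ = φ then 1 else 0 := by
  classical
  set F : T → ℂ := fun t => indFun T (ψ : T → ℂ) t with hF
  have hFc : IsClassFunction T F := fun a c => Char.isClassFunction_indFun T _ a c
  have h1 : (ψ : T → ℂ) = ∑ η : IrrCharacter T,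
      (classInner F (η : T → ℂ) * omega (η : T → ℂ) (toSub T (nIdem N b))) • (η : T → ℂ) := by
    funext t
    rw [Finset.sum_apply, ← pair_indFun_nIdem hb hT hNT hψ t.2]
    have h2 : pair (indFun T (ψ : T → ℂ)) (nIdem N b * MonoidAlgebra.single (t : G) 1) =
        ∑ k : T, (toSub T (nIdem N b)).coeff k * F (k * t) := by
      rw [pair_eq_sum, ← Equiv.sum_comp (Equiv.mulRight (t : G))]
      simp only [Equiv.coe_mulRight, MonoidAlgebra.coeff_mul_single_apply, mul_inv_cancel_right,
        mul_one]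
      refine (Finset.sum_of_injOn (fun k : T => (k : G)) ?_ ?_ ?_ ?_).symm
      · intro a _ c _ h; exact Subtype.ext h
      · intro a _; exact Finset.mem_coe.2 (Finset.mem_univ _)
      · intro m _ hm
        rw [nIdem_supp hNT m (fun h => hm ⟨⟨m, h⟩, Finset.mem_coe.2 (Finset.mem_univ _), rfl⟩),
          zero_mul]
      · intro k _; rfl
    rw [h2]
    conv_lhs => enter [2, k, 2]; rw [Char.eq_sum_classInner_smul hFc]
    simp only [Finset.sum_apply, Pi.smul_apply, smul_eq_mul, Finset.mul_sum]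
    rw [Finset.sum_comm]
    refine Finset.sum_congr rfl fun η _ => ?_
    have h3 := pair_mul_of_class η.2 (isClassCoeff_toSub_nIdem hT (T := T))
      (MonoidAlgebra.single t (1 : ℂ))
    rw [pair_single, one_mul, pair_eq_sum, ← Equiv.sum_comp (Equiv.mulRight t)] at h3
    simp only [Equiv.coe_mulRight, MonoidAlgebra.coeff_mul_single_apply, mul_inv_cancel_right,
      mul_one] at h3
    rw [mul_assoc, ← h3, Finset.mul_sum]
    exact Finset.sum_congr rfl fun k _ => by ring
  have h2 := congrArg (fun f => classInner f (φ : T → ℂ)) h1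
  simp only [Char.classInner_sum_left, Char.classInner_smul_left] at h2
  rw [Finset.sum_eq_single φ] at h2
  · rw [Char.classInner_irr_self φ.2, mul_one, Char.classInner_irrCharacter] at h2
    rw [← h2]
    split_ifs <;> rfl
  · intro η _ hη
    rw [Char.classInner_irrCharacter, if_neg hη, mul_zero]
  · exact fun h => absurd (Finset.mem_univ φ) h

theorem isIrr_indFun (hb : IsPBlock M b) (hT : IsStab N b T) (hNT : N ≤ T) {ψ : IrrCharacter T}
    (hψ : IsOver b ψ) : IsIrrCharacter G (indFun T (ψ : T → ℂ)) := by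
  classical
  refine Char.isIrrCharacter_of_norm_one
    (Char.isCharacter_indFun T (Char.isCharacter_of_isIrr ψ.2)) ?_
  rw [Char.classInner_indFun T _ (Char.isClassFunction_indFun T _)]
  have h := classInner_restrict_indFun hb hT hNT hψ ψ
  rw [hψ, mul_one, if_pos rfl] at h
  rw [Char.classInner_conj_symm, h, map_one]

theorem indFun_injective (hb : IsPBlock M b) (hT : IsStab N b T) (hNT : N ≤ T)
    {ψ φ : IrrCharacter T} (hψ : IsOver b ψ) (hφ : IsOver b φ)
    (h : indFun T (ψ : T → ℂ) = indFun T (φ : T → ℂ)) : ψ = φ := by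
  classical
  have h1 := classInner_restrict_indFun hb hT hNT hψ φ
  have h2 := classInner_restrict_indFun hb hT hNT hφ φ
  rw [h] at h1
  rw [h1, if_pos rfl] at h2
  by_contra hne
  rw [if_neg hne] at h2
  exact zero_ne_one h2

/-- A character over `b` is induced from one of the stabiliser over `b`. -/
theorem exists_eq_indFun [Fintype N] (hb : IsPBlock M b) (hT : IsStab N b T) (hNT : N ≤ T)
    {χ : IrrCharacter G} {θ : IrrCharacter N} (hθ : θ ∈ b)
    (h : classInner (fun n : N => (χ : G → ℂ) n) (θ : N → ℂ) ≠ 0) :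
    ∃ ψ : IrrCharacter T, IsOver b ψ ∧ (χ : G → ℂ) = indFun T (ψ : T → ℂ) := by
  classical
  set F : T → ℂ := fun t => (χ : G → ℂ) t
  have hF : IsCharacter T F := Char.isCharacter_restrict (Char.isCharacter_of_isIrr χ.2) T
  have hexp := Char.eq_sum_classInner_smul (Char.isClassFunction_of_isCharacter hF)
  obtain ⟨ψ, hψ1, hψ2⟩ : ∃ ψ : IrrCharacter T, classInner F (ψ : T → ℂ) ≠ 0 ∧
      classInner (fun n : N => (ψ : T → ℂ) ⟨(n : G), hNT n.2⟩) (θ : N → ℂ) ≠ 0 := by
    by_contra! hc
    refine h ?_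
    rw [show (fun n : N => (χ : G → ℂ) n) = ∑ ψ : IrrCharacter T, classInner F (ψ : T → ℂ) •
        (fun n : N => (ψ : T → ℂ) ⟨(n : G), hNT n.2⟩) by
      funext n
      have := congrFun hexp ⟨n, hNT n.2⟩
      simpa [Finset.sum_apply] using this, Char.classInner_sum_left]
    refine Finset.sum_eq_zero fun ψ _ => ?_
    rw [Char.classInner_smul_left]
    by_cases h0 : classInner F (ψ : T → ℂ) = 0
    · rw [h0, zero_mul]
    · rw [hc ψ h0, mul_zero]
  have hψ : IsOver b ψ := (isOver_iff hT hNT ψ).2 ⟨θ, hθ, hψ2⟩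
  refine ⟨ψ, hψ, ?_⟩
  by_contra hne
  refine hψ1 ?_
  have h1 := Char.classInner_indFun T (ψ : T → ℂ) (Char.isClassFunction_of_isIrr χ.2)
  have h2 := Char.classInner_irrCharacter (⟨_, isIrr_indFun hb hT hNT hψ⟩ : IrrCharacter G) χ
  rw [if_neg fun e => hne (congrArg Subtype.val e).symm] at h2
  rw [Char.classInner_conj_symm, ← h1, h2, map_zero]

/-- Characters over `b` in one block induce into one block and conversely. -/
theorem sameBlock_indFun_iff [Fintype N] (hM : IsPModular p M) (hb : IsPBlock M b)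
    (hT : IsStab N b T) (hNT : N ≤ T) {ψ φ : IrrCharacter T} (hψ : IsOver b ψ) (hφ : IsOver b φ) :
    SameBlock M (indFun T (ψ : T → ℂ)) (indFun T (φ : T → ℂ)) ↔
      SameBlock M (ψ : T → ℂ) (φ : T → ℂ) := by
  classical
  set X : IrrCharacter G := ⟨_, isIrr_indFun hb hT hNT hψ⟩
  set Y : IrrCharacter G := ⟨_, isIrr_indFun hb hT hNT hφ⟩
  show SameBlock M (X : G → ℂ) (Y : G → ℂ) ↔ _
  refine ⟨fun h => sameBlock_iff.2 fun t₀ => ?_, fun h => sameBlock_iff.2 fun g => ?_⟩
  · set a := classSum ℂ t₀ with ha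
    set x : MonoidAlgebra ℂ G := fromSub T (toSub T (nIdem N b) * a) with hx
    have hxinv : ∀ t ∈ T, InvUnder t x := fun t ht =>
      invUnder_fromSub ((isClassCoeff_toSub_nIdem hT).mul (isClassCoeff_classSum t₀)) ht
    have hxR : IntR M x := intR_fromSub ((intR_toSub (intR_fromSub (intR_eIdem hb) :
      IntR M (nIdem N b))).mul (intR_classSum t₀))
    set A : MonoidAlgebra ℂ G :=
      ofFun fun g => (Nat.card T : ℂ)⁻¹ * ∑ c : G, x.coeff (c * g * c⁻¹) with hA
    have hAc : IsClassCoeff A := fun u g => by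
      simp only [hA, coeff_ofFun]
      congr 1
      conv_rhs => rw [← Equiv.sum_comp (Equiv.mulRight u)]
      refine Finset.sum_congr rfl fun c _ => congrArg x.coeff ?_
      simp only [Equiv.coe_mulRight]
      group
    have hAR : IntR M A := fun g => by
      simp only [hA, coeff_ofFun]
      have h1 : ∑ c : G, x.coeff (c * g * c⁻¹) =
          (Nat.card T : ℂ) * ∑ q : G ⧸ T, x.coeff (q.out⁻¹ * g * q.out⁻¹⁻¹) := by
        rw [← Equiv.sum_comp (Equiv.inv G), ← Equiv.sum_comp
          (Subgroup.groupEquivQuotientProdSubgroup (s := T)).symm, Fintype.sum_prod_type,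
          Finset.mul_sum]
        refine Finset.sum_congr rfl fun q _ => ?_
        rw [Finset.sum_congr rfl fun t _ => show
          x.coeff ((Equiv.inv G) ((Subgroup.groupEquivQuotientProdSubgroup (s := T)).symm (q, t)) * g *
            ((Equiv.inv G) ((Subgroup.groupEquivQuotientProdSubgroup (s := T)).symm (q, t)))⁻¹) =
          x.coeff (q.out⁻¹ * g * q.out⁻¹⁻¹) by
          obtain ⟨s, hs⟩ : ∃ s ∈ T, (Equiv.inv G)
              ((Subgroup.groupEquivQuotientProdSubgroup (s := T)).symm (q, t)) = s * q.out⁻¹ := by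
            obtain ⟨y, hy⟩ : ∃ y, y = (Subgroup.groupEquivQuotientProdSubgroup (s := T)).symm (q, t) :=
              ⟨_, rfl⟩
            have hq : (y : G ⧸ T) = q := by
              have := congrArg Prod.fst ((Subgroup.groupEquivQuotientProdSubgroup (s := T)).apply_symm_apply (q, t))
              rw [← hy] at this
              exact this
            refine ⟨y⁻¹ * q.out, QuotientGroup.eq.1 (hq.trans (QuotientGroup.out_eq' q).symm), ?_⟩
            rw [← hy]
            simp
          rw [hs.2, show s * q.out⁻¹ * g * (s * q.out⁻¹)⁻¹ = s * (q.out⁻¹ * g * q.out⁻¹⁻¹) * s⁻¹ by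
            group, hxinv s hs.1]]
        rw [Finset.sum_const, Finset.card_univ, nsmul_eq_mul, Nat.card_eq_fintype_card]
      rw [h1, ← mul_assoc, inv_mul_cancel₀ (Nat.cast_ne_zero.2 Nat.card_pos.ne'), one_mul]
      exact sum_mem fun q _ => hxR _
    have key : ∀ {η : IrrCharacter T}, IsOver b η →
        omega (indFun T (η : T → ℂ)) A = centralChar (η : T → ℂ) t₀ := by
      intro η hη
      have hcl := Char.isClassFunction_indFun T (η : T → ℂ)
      have hpair : pair (indFun T (η : T → ℂ)) A =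
          (T.index : ℂ) * pair (indFun T (η : T → ℂ)) x := by
        rw [pair_eq_sum, pair_eq_sum]
        simp only [hA, coeff_ofFun, Finset.mul_sum, Finset.sum_mul]
        rw [Finset.sum_comm]
        rw [Finset.sum_congr rfl fun c _ => show
          ∑ g : G, (Nat.card T : ℂ)⁻¹ * x.coeff (c * g * c⁻¹) * indFun T (η : T → ℂ) g =
            (Nat.card T : ℂ)⁻¹ * ∑ g : G, x.coeff g * indFun T (η : T → ℂ) g by
          rw [Finset.mul_sum]
          conv_rhs => rw [← Equiv.sum_comp (MulAut.conj c).toEquiv]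
          refine Finset.sum_congr rfl fun g _ => ?_
          rw [MulEquiv.toEquiv_eq_coe, MulEquiv.coe_toEquiv, MulAut.conj_apply, hcl g c]
          ring]
        rw [Finset.sum_const, Finset.card_univ, nsmul_eq_mul, ← Finset.mul_sum,
          ← Nat.card_eq_fintype_card, ← Subgroup.index_mul_card T, Nat.cast_mul]
        have : (Nat.card T : ℂ) ≠ 0 := Nat.cast_ne_zero.2 Nat.card_pos.ne'
        field_simp
      have hpx : pair (indFun T (η : T → ℂ)) x = pair (η : T → ℂ) a := by
        rw [hx, eq_sum_single a, Finset.mul_sum]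
        rw [show fromSub T (∑ s : T, toSub T (nIdem N b) * MonoidAlgebra.single s (a.coeff s)) =
          ∑ s : T, a.coeff s • (nIdem N b * MonoidAlgebra.single (s : G) 1) by
          refine alg_ext fun g => ?_
          by_cases hg : g ∈ T
          · rw [coeff_fromSub_of_mem T _ hg, coeff_sum_apply, coeff_sum_apply]
            refine Finset.sum_congr rfl fun s _ => ?_
            simp [mul_comm]
          · rw [coeff_fromSub_of_not_mem T _ hg, coeff_sum_apply]
            refine (Finset.sum_eq_zero fun s _ => ?_).symm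
            simp only [MonoidAlgebra.coeff_smul, Finsupp.smul_apply, smul_eq_mul,
              MonoidAlgebra.coeff_mul_single_apply, mul_one]
            rw [nIdem_supp hNT, mul_zero]
            exact fun h => hg (by simpa using T.mul_mem h s.2)]
        rw [pair_sum, pair_sum]
        refine Finset.sum_congr rfl fun s _ => ?_
        rw [pair_smul, pair_indFun_nIdem hb hT hNT hη s.2, pair_single]
      rw [omega, hpair, hpx, Char.indFun_one, ← omega_classSum_irr, omega,
        mul_div_mul_left _ _ (Nat.cast_ne_zero.2 Subgroup.index_ne_zero_of_finite)]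
    have h1 := redC_omega_eq_of_sameBlock h hAc hAR
    rwa [key hψ, key hφ] at h1
  · show redC M (centralChar (indFun T (ψ : T → ℂ)) g) = redC M (centralChar (indFun T (φ : T → ℂ)) g)
    rw [centralChar_indFun, centralChar_indFun, inducedCentralChar_eq, inducedCentralChar_eq]
    exact redC_omega_eq_of_sameBlock h (isClassCoeff_toSub (isClassCoeff_classSum g))
      (intR_toSub (intR_classSum g))

/-- The block induced from a block over `b`. -/
theorem exists_induced [Fintype N] (hb : IsPBlock M b) (hT : IsStab N b T) (hNT : N ≤ T)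
    {B' : Set (IrrCharacter T)} (hB' : IsPBlock M B') {ψ : IrrCharacter T} (hψB : ψ ∈ B')
    (hψ : IsOver b ψ) :
    IsInducedBlock M T B'
      (blockOf M ((⟨_, isIrr_indFun hb hT hNT hψ⟩ : IrrCharacter G) : G → ℂ)) := by
  refine isInducedBlock_iff.2 ⟨hB', isPBlock_blockOf _, fun ξ hξ χ hχ g => ?_⟩
  rw [← centralChar_indFun T (ξ : T → ℂ) g]
  have h1 : SameBlock M (ψ : T → ℂ) (ξ : T → ℂ) := sameBlock_of_mem hB' hψB hξ
  have h2 : redC M (centralChar (indFun T (ψ : T → ℂ)) g) =
      redC M (centralChar (indFun T (ξ : T → ℂ)) g) := by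
    rw [centralChar_indFun, centralChar_indFun, inducedCentralChar_eq, inducedCentralChar_eq]
    exact redC_omega_eq_of_sameBlock h1 (isClassCoeff_toSub (isClassCoeff_classSum g))
      (intR_toSub (intR_classSum g))
  rw [← h2]
  exact (sameBlock_iff (χ := (⟨_, isIrr_indFun hb hT hNT hψ⟩ : IrrCharacter G))).1 hχ g

/-- An induced character covers `b`. -/
theorem exists_constituent_indFun [Fintype N] (hb : IsPBlock M b) (hT : IsStab N b T) (hNT : N ≤ T)
    {ψ : IrrCharacter T} (hψ : IsOver b ψ) :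
    ∃ θ ∈ b, classInner (fun n : N => indFun T (ψ : T → ℂ) n) (θ : N → ℂ) ≠ 0 := by
  classical
  obtain ⟨θ, hθ, hne⟩ := (isOver_iff hT hNT ψ).1 hψ
  refine ⟨θ, hθ, ?_⟩
  set F : T → ℂ := fun t => indFun T (ψ : T → ℂ) t
  have hF : IsCharacter T F :=
    Char.isCharacter_restrict (Char.isCharacter_indFun T (Char.isCharacter_of_isIrr ψ.2)) T
  choose m hm using fun φ : IrrCharacter T =>
    Char.classInner_natCast hF (Char.isCharacter_of_isIrr φ.2)
  choose r hr using fun φ : IrrCharacter T =>
    Char.classInner_natCast (Char.isCharacter_comp (Char.isCharacter_of_isIrr φ.2)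
      (Subgroup.inclusion hNT)) (Char.isCharacter_of_isIrr θ.2)
  have hexp := Char.eq_sum_classInner_smul (Char.isClassFunction_of_isCharacter hF)
  rw [show (fun n : N => indFun T (ψ : T → ℂ) n) = ∑ φ : IrrCharacter T, classInner F (φ : T → ℂ) •
      (fun n : N => (φ : T → ℂ) ⟨(n : G), hNT n.2⟩) by
    funext n
    have := congrFun hexp ⟨n, hNT n.2⟩
    simpa [Finset.sum_apply] using this, Char.classInner_sum_left]
  have hterm : ∀ φ : IrrCharacter T, classInner (classInner F (φ : T → ℂ) •
      fun n : N => (φ : T → ℂ) ⟨(n : G), hNT n.2⟩) (θ : N → ℂ) = ((m φ * r φ : ℕ) : ℂ) := fun φ => by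
    rw [Char.classInner_smul_left, hm φ, Nat.cast_mul, ← hr φ]
    rfl
  rw [Finset.sum_congr rfl fun φ _ => hterm φ, ← Nat.cast_sum, Nat.cast_ne_zero]
  intro h0
  have h1 := Finset.sum_eq_zero_iff.1 h0 ψ (Finset.mem_univ ψ)
  have h2 := classInner_restrict_indFun hb hT hNT hψ ψ
  rw [hψ, mul_one, if_pos rfl, hm, Nat.cast_eq_one] at h2
  rw [h2, one_mul] at h1
  refine hne ?_
  rw [show (fun n : N => (ψ : T → ℂ) ⟨(n : G), hNT n.2⟩) = (ψ : T → ℂ) ∘ Subgroup.inclusion hNT
    from rfl, hr, h1, Nat.cast_zero]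

/-- A character of `G` lying in the block of an induced one is induced from the same block. -/
theorem exists_of_mem_induced [Fintype N] (hM : IsPModular p M) (hb : IsPBlock M b)
    (hT : IsStab N b T) (hNT : N ≤ T) {ψ : IrrCharacter T} (hψ : IsOver b ψ) {χ : IrrCharacter G}
    (h : SameBlock M (indFun T (ψ : T → ℂ)) (χ : G → ℂ)) :
    ∃ φ : IrrCharacter T, SameBlock M (ψ : T → ℂ) (φ : T → ℂ) ∧ IsOver b φ ∧
      (χ : G → ℂ) = indFun T (φ : T → ℂ) := by
  classical
  obtain ⟨θ, hθ, hne⟩ := exists_constituent_indFun hb hT hNT hψ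
  obtain ⟨η, hη⟩ := exists_constituent_restrict N χ
  obtain ⟨g, θ', hθ', he⟩ := mem_gClosure_of_sameBlock N hb
    (χ := ⟨_, isIrr_indFun hb hT hNT hψ⟩) h hθ hne hη
  have hcov : classInner (fun n : N => (χ : G → ℂ) n) (θ' : N → ℂ) ≠ 0 := by
    rw [← Char.classInner_conjChar N g,
      Char.conjChar_restrict N (Char.isClassFunction_of_isIrr χ.2), he]
    exact hη
  obtain ⟨φ, hφ, hφe⟩ := exists_eq_indFun hb hT hNT hθ' hcov
  rw [hφe] at h
  exact ⟨φ, (sameBlock_indFun_iff hM hb hT hNT hψ hφ).1 h, hφ, hφe⟩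

variable {B' : Set (IrrCharacter T)}

/-- The members of a block of `T` with one member over `b` all lie over `b`. -/
theorem isOver_of_cover [Fintype N] (hb : IsPBlock M b) (hT : IsStab N b T) (hNT : N ≤ T)
    (hB' : IsPBlock M B') (hcov : ∃ ψ ∈ B', ∃ θ ∈ b,
      classInner (fun n : N => (ψ : T → ℂ) ⟨(n : G), hNT n.2⟩) (θ : N → ℂ) ≠ 0)
    {φ : IrrCharacter T} (hφ : φ ∈ B') : IsOver b φ := by
  obtain ⟨ψ, hψ, h⟩ := hcov
  exact isOver_of_sameBlock hb hT hNT (sameBlock_of_mem hB' hψ hφ) ((isOver_iff hT hNT ψ).2 h)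

/-- The induced block contains the induced characters. -/
theorem mem_of_isInducedBlock {B : Set (IrrCharacter G)} (hind : IsInducedBlock M T B' B)
    {ψ : IrrCharacter T} (hψB : ψ ∈ B') (hX : IsIrrCharacter G (indFun T (ψ : T → ℂ))) :
    (⟨_, hX⟩ : IrrCharacter G) ∈ B := by
  classical
  obtain ⟨χ, hχ⟩ := isPBlock_nonempty hind.2.1
  refine (mem_iff_sameBlock hind.2.1 hχ).2 (sameBlock_iff.2 fun g => ?_)
  show redC M (centralChar (χ : G → ℂ) g) = redC M (centralChar (indFun T (ψ : T → ℂ)) g)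
  rw [centralChar_indFun]
  exact ((isInducedBlock_iff.1 hind).2.2 ψ hψB χ hχ g).symm

/-- The induced block consists of the induced characters. -/
theorem mem_induced_iff [Fintype N] (hM : IsPModular p M) (hb : IsPBlock M b) (hT : IsStab N b T)
    (hNT : N ≤ T) (hB' : IsPBlock M B') (hcov : ∃ ψ ∈ B', ∃ θ ∈ b,
      classInner (fun n : N => (ψ : T → ℂ) ⟨(n : G), hNT n.2⟩) (θ : N → ℂ) ≠ 0)
    {B : Set (IrrCharacter G)} (hind : IsInducedBlock M T B' B) (χ : IrrCharacter G) :
    χ ∈ B ↔ ∃ ψ ∈ B', (χ : G → ℂ) = indFun T (ψ : T → ℂ) := by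
  classical
  refine ⟨fun h => ?_, ?_⟩
  · obtain ⟨ψ, hψB⟩ := isPBlock_nonempty hB'
    have hψ := isOver_of_cover hb hT hNT hB' hcov hψB
    obtain ⟨φ, hφ, -, he⟩ := exists_of_mem_induced hM hb hT hNT hψ
      (sameBlock_of_mem hind.2.1 (mem_of_isInducedBlock hind hψB (isIrr_indFun hb hT hNT hψ)) h)
    exact ⟨φ, (mem_iff_sameBlock hB' hψB).2 hφ, he⟩
  · rintro ⟨ψ, hψB, he⟩
    have h := mem_of_isInducedBlock hind hψB (he ▸ χ.2)
    rwa [show χ = ⟨_, (he ▸ χ.2 : IsIrrCharacter G (indFun T (ψ : T → ℂ)))⟩ from Subtype.ext he]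

/-- Induction from the stabiliser keeps the defect, the heights and the defect groups. -/
theorem defect_induced [Fintype N] (hM : IsPModular p M) (hb : IsPBlock M b) (hT : IsStab N b T)
    (hNT : N ≤ T) (hB' : IsPBlock M B') (hcov : ∃ ψ ∈ B', ∃ θ ∈ b,
      classInner (fun n : N => (ψ : T → ℂ) ⟨(n : G), hNT n.2⟩) (θ : N → ℂ) ≠ 0)
    {B : Set (IrrCharacter G)} (hind : IsInducedBlock M T B' B) :
    blockDefect p B = blockDefect p B' ∧
      (∀ ψ ∈ B', blockHeight p B (indFun T (ψ : T → ℂ)) = blockHeight p B' (ψ : T → ℂ)) ∧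
      ∀ D : Subgroup T, IsDefectGroup p M B' D → IsDefectGroup p M B (D.map T.subtype) := by
  classical
  have hfac : ∀ ψ : IrrCharacter T, (charDegree (indFun T (ψ : T → ℂ))).factorization p =
      T.index.factorization p + (charDegree (ψ : T → ℂ)).factorization p := fun ψ => by
    rw [Char.charDegree_indFun T (Char.isCharacter_of_isIrr ψ.2),
      Nat.factorization_mul Subgroup.index_ne_zero_of_finite (charDegree_pos ψ).ne',
      Finsupp.add_apply]
  obtain ⟨ψ₀, hψ₀, h₀, hmin⟩ := exists_min_degree hB' p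
  have hinf : sInf ((fun χ : IrrCharacter G => (charDegree (χ : G → ℂ)).factorization p) '' B) =
      T.index.factorization p + (charDegree (ψ₀ : T → ℂ)).factorization p := by
    refine le_antisymm ?_ (le_csInf ((isPBlock_nonempty hind.2.1).image _) ?_)
    · have hm := mem_of_isInducedBlock hind hψ₀
        (isIrr_indFun hb hT hNT (isOver_of_cover hb hT hNT hB' hcov hψ₀))
      exact (Nat.sInf_le (Set.mem_image_of_mem
        (fun χ : IrrCharacter G => (charDegree (χ : G → ℂ)).factorization p) hm)).trans (hfac ψ₀).le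
    · rintro _ ⟨χ, hχ, rfl⟩
      obtain ⟨φ, hφ, he⟩ := (mem_induced_iff hM hb hT hNT hB' hcov hind χ).1 hχ
      show _ ≤ (charDegree (χ : G → ℂ)).factorization p
      rw [he, hfac]
      exact Nat.add_le_add_left (hmin φ hφ) _
  have hd : blockDefect p B = blockDefect p B' := by
    rw [blockDefect, blockDefect, hinf, ← h₀, ← Subgroup.index_mul_card T,
      Nat.factorization_mul Subgroup.index_ne_zero_of_finite Nat.card_pos.ne', Finsupp.add_apply]
    omega
  refine ⟨hd, fun ψ hψ => ?_, fun D hD => ?_⟩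
  · rw [blockHeight, blockHeight, hinf, ← h₀, hfac]
    omega
  · obtain ⟨E, hE, hle⟩ := exists_defect_ge_of_induced hM hind hD
    rwa [Subgroup.eq_of_le_of_card_ge hle (by
      rw [Subgroup.card_map_of_injective T.subtype_injective,
        (IsDefectGroup.props hM hind.2.1 hE).2.1, (IsDefectGroup.props hM hB' hD).2.1, hd])]

end Cfsg.Agent.Lib.Block
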