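import Cfsg.Agent.S4637

/-!
# The columns of the sections of a block with Klein four defect group
-/

set_option autoImplicit false
set_option linter.unusedSectionVars false
set_option linter.style.haveILetI false

namespace Cfsg.Agent.Lib.Block.KleinSections

open Cfsg Cfsg.Agent.Lib Cfsg.Agent.Lib.Block
open scoped ComplexConjugate

universe u

section General

variable {p : ℕ} {M : Ideal AlgInt} [M.IsPrime] {G : Type u} [Group G] [Finite G]

/-- An integral combination of characters vanishing on the singular elements is divisible at a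
regular element by the order of the centraliser. -/
theorem div_centralizer_mem (hM : IsPModular p M) {ι : Type*} (s : Finset ι) (a : ι → ℂ)
    (ha : ∀ i ∈ s, IsIntegral ℤ (a i)) (f : ι → G → ℂ) (hf : ∀ i ∈ s, IsCharacter G (f i))
    (hvan : ∀ g : G, p ∣ orderOf g → ∑ i ∈ s, a i * f i g = 0) {x : G} (hx : ¬ p ∣ orderOf x) :
    (∑ i ∈ s, a i * f i x) / (Nat.card (Subgroup.centralizer ({x} : Set G)) : ℂ) ∈ locRing M := by
  classical
  haveI : Fact p.Prime := ⟨hM.1⟩
  set C := Subgroup.centralizer ({x} : Set G) with hC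
  obtain ⟨S⟩ : Nonempty (Sylow p C) := inferInstance
  set S' := (S : Subgroup C).map C.subtype with hS'
  haveI := Fintype.ofFinite S'
  have hS'p : IsPGroup p S' := S.isPGroup'.map _
  have hcomm : ∀ t ∈ S', Commute x t := fun t ht =>
    (Subgroup.mem_centralizer_singleton_iff.1 (Subgroup.map_subtype_le _ ht)).symm
  have hcard : Nat.card S' = p ^ (Nat.card C).factorization p := by
    rw [hS', Subgroup.card_map_of_injective C.subtype_injective, S.card_eq_multiplicity]
  have h1 : ∑ i ∈ s, a i * f i x = ∑ t : S', ∑ i ∈ s, a i * f i (x * t) := by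
    rw [Finset.sum_eq_single (1 : S')]
    · simp
    · intro t _ ht
      refine hvan _ ?_
      rw [(hcomm t t.2).eq]
      exact singular_mul (isPElem_of_mem hS'p t.2) (fun h => ht (Subtype.ext h)) hx (hcomm t t.2).symm
    · simp
  have hint : IsIntegral ℤ ((Nat.card S' : ℂ)⁻¹ * ∑ i ∈ s, a i * f i x) := by
    rw [h1, Finset.sum_comm, Finset.mul_sum]
    refine IsIntegral.sum _ fun i hi => ?_
    rw [← Finset.mul_sum, mul_left_comm]
    exact (ha i hi).mul (isIntegral_average (hf i hi) hcomm)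
  have hu : (Nat.card S' : ℂ) / (Nat.card C : ℂ) ∈ locRing M :=
    (natDiv_aux (M := M) hM Nat.card_pos.ne' Nat.card_pos.ne' (by
      rw [hcard, Nat.factorization_pow_self hM.1])).1
  have hne : (Nat.card S' : ℂ) ≠ 0 := Nat.cast_ne_zero.2 Nat.card_pos.ne'
  have e : (∑ i ∈ s, a i * f i x) / (Nat.card C : ℂ) =
      (Nat.card S' : ℂ) / (Nat.card C : ℂ) * ((Nat.card S' : ℂ)⁻¹ * ∑ i ∈ s, a i * f i x) := by
    field_simp
  rw [e]
  exact mul_mem hu (integral_mem_locRing hint)

/-- A section against the conjugated characters at an element. -/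
theorem sum_sectionMap_one (hM : IsPModular p M) {x : G} (hx : IsPElem p x)
    [Fintype (Subgroup.centralizer ({x} : Set G))]
    (b : Set (IrrCharacter (Subgroup.centralizer ({x} : Set G)))) (hb : IsPBlock M b) (g : G) :
    ((∀ w : Subgroup.centralizer ({x} : Set G), ¬ p ∣ orderOf w → ¬ IsConj (x * (w : G)) g) →
      ∑ χ : IrrCharacter G, sectionMap p x b (χ : G → ℂ) 1 * conj ((χ : G → ℂ) g) = 0) ∧
    ∀ u : Subgroup.centralizer ({x} : Set G), ¬ p ∣ orderOf u → g = x * (u : G) →
      ∑ χ : IrrCharacter G, sectionMap p x b (χ : G → ℂ) 1 * conj ((χ : G → ℂ) g) =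
        ∑ φ : IrrCharacter (Subgroup.centralizer ({x} : Set G)),
          blockProj p b (φ : Subgroup.centralizer ({x} : Set G) → ℂ) 1 *
            conj ((φ : Subgroup.centralizer ({x} : Set G) → ℂ) u) := by
  haveI : Fact p.Prime := ⟨hM.1⟩
  haveI := Fintype.ofFinite G
  set F : Subgroup.centralizer ({x} : Set G) → ℂ := ∑ χ : IrrCharacter G,
    conj ((χ : G → ℂ) g) • fun w : Subgroup.centralizer ({x} : Set G) => (χ : G → ℂ) (x * (w : G))
    with hF
  have hFc : IsClassFunction _ F := by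
    have : F ∈ Char.classFunctions (Subgroup.centralizer ({x} : Set G)) :=
      Submodule.sum_mem _ fun χ _ => Submodule.smul_mem _ _
        (isClassFunction_translate (Char.isClassFunction_of_isIrr χ.2) x)
    exact this
  have hL : ∑ χ : IrrCharacter G, sectionMap p x b (χ : G → ℂ) 1 * conj ((χ : G → ℂ) g) =
      blockProj p b F 1 := by
    simp only [hF, map_sum, map_smul, Finset.sum_apply, Pi.smul_apply, smul_eq_mul]
    exact Finset.sum_congr rfl fun χ _ => mul_comm _ _
  constructor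
  · intro h
    have h0 : IsClassFunction (Subgroup.centralizer ({x} : Set G))
        (0 : Subgroup.centralizer ({x} : Set G) → ℂ) := fun _ _ => rfl
    rw [hL, blockProj_congr hM hb hFc h0 fun w hw => ?_, map_zero, Pi.zero_apply]
    simp only [hF, Finset.sum_apply, Pi.smul_apply, smul_eq_mul, mul_comm (conj _), Pi.zero_apply]
    rw [CharTools.sum_irr_mul_conj', if_neg (h w hw)]
  · rintro u hu rfl
    set F' : Subgroup.centralizer ({x} : Set G) → ℂ :=
      ∑ φ : IrrCharacter (Subgroup.centralizer ({x} : Set G)),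
        conj ((φ : Subgroup.centralizer ({x} : Set G) → ℂ) u) •
          (φ : Subgroup.centralizer ({x} : Set G) → ℂ) with hF'
    have hF'c : IsClassFunction _ F' := by
      have : F' ∈ Char.classFunctions (Subgroup.centralizer ({x} : Set G)) :=
        Submodule.sum_mem _ fun φ _ => Submodule.smul_mem _ _ (Char.isClassFunction_of_isIrr φ.2)
      exact this
    rw [hL, blockProj_congr hM hb hFc hF'c fun w hw => ?_]
    · simp only [hF', map_sum, map_smul, Finset.sum_apply, Pi.smul_apply, smul_eq_mul]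
      exact Finset.sum_congr rfl fun φ _ => mul_comm _ _
    simp only [hF, hF', Finset.sum_apply, Pi.smul_apply, smul_eq_mul, mul_comm (conj _)]
    rw [CharTools.sum_irr_mul_conj', CharTools.sum_irr_mul_conj']
    rw [card_centralizer_mul hx u hu]
    split_ifs with h1 h2 h2
    exacts [rfl, absurd ((isConj_mul_iff hx hw hu).1 h1) h2,
      absurd ((isConj_mul_iff hx hw hu).2 h2) h1, rfl]

/-- Distinct subsections are orthogonal at the identity. -/
theorem sum_sectionMap_ne (hM : IsPModular p M) {x y : G} (hx : IsPElem p x) (hy : IsPElem p y)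
    {b : Set (IrrCharacter (Subgroup.centralizer ({x} : Set G)))} (hb : IsPBlock M b)
    {b' : Set (IrrCharacter (Subgroup.centralizer ({y} : Set G)))} (hb' : IsPBlock M b')
    (h : ¬ IsConj x y ∨ ∃ _e : x = y, ¬ HEq b b') :
    ∑ χ : IrrCharacter G, sectionMap p x b (χ : G → ℂ) 1 *
      conj (sectionMap p y b' (χ : G → ℂ) 1) = 0 := by
  classical
  haveI : Fact p.Prime := ⟨hM.1⟩
  haveI := Fintype.ofFinite (Subgroup.centralizer ({x} : Set G))
  haveI := Fintype.ofFinite (Subgroup.centralizer ({y} : Set G))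
  have hsec : ∀ χ : IrrCharacter G, sectionMap p y b' (χ : G → ℂ) 1 =
      ∑ k : Subgroup.centralizer ({y} : Set G), blockCoeff b' k * (χ : G → ℂ) (y * (k : G)) :=
    fun χ => by
      rw [sectionMap_apply, blockProj_apply, if_neg regular_one]
      exact Finset.sum_congr rfl fun k _ => by rw [mul_one]
  have hreg : ∀ k : Subgroup.centralizer ({y} : Set G), blockCoeff b' k ≠ 0 → ¬ p ∣ orderOf k :=
    fun k hk => regular_of_blockCoeff_ne_zero hM hb' hk
  simp only [hsec, map_sum, map_mul, Finset.mul_sum]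
  rw [Finset.sum_comm]
  simp only [mul_left_comm (sectionMap p x b _ 1), ← Finset.mul_sum]
  rcases h with h | ⟨rfl, hne⟩
  · refine Finset.sum_eq_zero fun k _ => ?_
    by_cases hk : blockCoeff b' k = 0
    · rw [hk, map_zero, zero_mul]
    rw [(sum_sectionMap_one hM hx b hb (y * (k : G))).1 fun w hw hconj => ?_, mul_zero]
    obtain ⟨c, hc⟩ := isConj_iff.1 hconj
    have h1 := IsPPart.conj (isPPart_mul hx (show ¬ p ∣ orderOf (w : G) by rwa [Subgroup.orderOf_coe])
      (Subgroup.mem_centralizer_singleton_iff.1 w.2).symm) c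
    rw [hc] at h1
    exact h (isConj_iff.2 ⟨c, IsPPart.unique h1 (isPPart_mul hy
      (show ¬ p ∣ orderOf (k : G) by rw [Subgroup.orderOf_coe]; exact hreg k hk)
      (Subgroup.mem_centralizer_singleton_iff.1 k.2).symm)⟩)
  · have hne' : b ≠ b' := fun e => hne (heq_of_eq e)
    have hterm : ∀ k : Subgroup.centralizer ({x} : Set G),
        conj (blockCoeff b' k) * (∑ χ : IrrCharacter G, sectionMap p x b (χ : G → ℂ) 1 *
          conj ((χ : G → ℂ) (x * (k : G)))) =
        ∑ φ : IrrCharacter (Subgroup.centralizer ({x} : Set G)),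
          blockProj p b (φ : Subgroup.centralizer ({x} : Set G) → ℂ) 1 *
            conj (blockCoeff b' k * (φ : Subgroup.centralizer ({x} : Set G) → ℂ) k) := by
      intro k
      by_cases hk : blockCoeff b' k = 0
      · simp [hk]
      rw [(sum_sectionMap_one hM hx b hb _).2 k (hreg k hk) rfl, Finset.mul_sum]
      exact Finset.sum_congr rfl fun φ _ => by rw [map_mul]; ring
    refine (Finset.sum_congr (by convert rfl) fun k _ => hterm k).trans ?_
    rw [Finset.sum_comm]
    simp only [← Finset.mul_sum, ← map_sum]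
    refine Finset.sum_eq_zero fun φ _ => ?_
    have key : ∀ {e : Set (IrrCharacter (Subgroup.centralizer ({x} : Set G)))}, IsPBlock M e →
        φ ∉ e → blockProj p e (φ : Subgroup.centralizer ({x} : Set G) → ℂ) 1 = 0 := fun {e} he hn => by
      rw [← blockProj_congr hM he (isClassFunction_pRegularPart p (Char.isClassFunction_of_isIrr φ.2))
        (Char.isClassFunction_of_isIrr φ.2) (fun w hw => by rw [pRegularPart_apply, if_neg hw]),
        blockProj_pRegularPart hM he φ, if_neg hn, Pi.zero_apply]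
    by_cases hφ : φ ∈ b
    · have h' := key hb' fun h' => hne' (eq_of_mem_of_mem hb hb' hφ h')
      rw [blockProj_apply, if_neg regular_one] at h'
      simp only [mul_one] at h'
      rw [h', map_zero, mul_zero]
    · rw [key hb hφ, zero_mul]

/-- A section is orthogonal to the regular elements. -/
theorem sum_sectionMap_regular (hM : IsPModular p M) {x : G} (hx : IsPElem p x) (hx1 : x ≠ 1)
    {b : Set (IrrCharacter (Subgroup.centralizer ({x} : Set G)))} (hb : IsPBlock M b) {g : G}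
    (hg : ¬ p ∣ orderOf g) :
    ∑ χ : IrrCharacter G, sectionMap p x b (χ : G → ℂ) 1 * conj ((χ : G → ℂ) g) = 0 := by
  haveI : Fact p.Prime := ⟨hM.1⟩
  haveI := Fintype.ofFinite (Subgroup.centralizer ({x} : Set G))
  refine (sum_sectionMap_one hM hx b hb g).1 fun w hw hconj => hg ?_
  rw [orderOf_of_isConj hconj]
  exact singular_mul hx hx1 (by rwa [Subgroup.orderOf_coe])
    (Subgroup.mem_centralizer_singleton_iff.1 w.2).symm

end General

section Klein

open BrauerPairs BrauerPairs.KleinDefect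

variable {M : Ideal AlgInt} [M.IsPrime] {G : Type u} [Group G] [Finite G]
  {B : Set (IrrCharacter G)} {P : Subgroup G} {c : CBlock P}

/-- A subsection away from the identity sits at an involution and has full defect. -/
theorem subsection_facts (hM : IsPModular 2 M) (hV : IsKleinFour P)
    (hmax : IsMaximalBrauerPair 2 M B P c) (hd : blockDefect 2 B = 2) {x : G} (hx : IsPElem 2 x)
    (hx1 : x ≠ 1) {C : Subgroup G} (hC : C = Subgroup.centralizer ({x} : Set G))
    {b : Set (IrrCharacter C)} (hb : IsInducedBlock M C b B) :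
    orderOf x = 2 ∧ blockDefect 2 b = 2 := by
  haveI : Fact (Nat.Prime 2) := ⟨Nat.prime_two⟩
  rw [← centralizer_zpowers] at hC
  subst hC
  have hxp : IsPGroup 2 (Subgroup.zpowers x) := IsPElem.isPGroup_zpowers hx
  obtain ⟨hfb, ho⟩ := (S4642.induced_iff_occ hM hxp hb.2.1).1 hb
  obtain ⟨y, hy⟩ := exists_conj_le_maximal hM
    ((isBrauerPairOf_iff hM).2 ⟨hxp, hfb, hb.2.1, ho⟩) hmax
  refine ⟨?_, by rw [← blockDefect_conjBlock _ y 2 b]; exact blockDefect_of_le hM hV hmax hd hy⟩
  rw [← orderOf_conj_eq y x]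
  exact orderOf_of_mem hV (subgroup_le hy ⟨x, Subgroup.mem_zpowers x, rfl⟩)
    fun h => hx1 (conj_eq_one_iff.1 h)

/-- The column of a subsection of full defect. -/
theorem exists_column (hM : IsPModular 2 M) {x : G} (hx : orderOf x = 2)
    [Fintype (Subgroup.centralizer ({x} : Set G))]
    {b : Set (IrrCharacter (Subgroup.centralizer ({x} : Set G)))}
    (hind : IsInducedBlock M (Subgroup.centralizer ({x} : Set G)) b B)
    (hbd : blockDefect 2 b = 2) (hBd : blockDefect 2 B = 2) (hk : Nat.card B = 4) :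
    ∃ (φ : Subgroup.centralizer ({x} : Set G) → ℂ) (d : IrrCharacter G → ℤ),
      (∀ χ : IrrCharacter G, ∀ y, sectionMap 2 x b (χ : G → ℂ) y = (d χ : ℂ) * φ y) ∧
      (∀ χ ∈ B, d χ = 1 ∨ d χ = -1) ∧ (∀ χ, χ ∉ B → d χ = 0) ∧ φ 1 ≠ 0 ∧
      (∀ y, IsIntegral ℤ (φ y)) ∧
      ∀ y, ¬ 2 ∣ orderOf y → 4 * φ y /
        (Nat.card (Subgroup.centralizer ({y} : Set (Subgroup.centralizer ({x} : Set G)))) : ℂ) ∈
          locRing M := by
  classical
  haveI : Fact (Nat.Prime 2) := ⟨Nat.prime_two⟩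
  haveI := resField_charP (M := M) hM
  haveI := Fintype.ofFinite G
  have hxp : IsPElem 2 x := ⟨1, by rw [hx, pow_one]⟩
  set z : (Subgroup.centralizer ({x} : Set G)) := ⟨x, self_mem_centralizer x⟩ with hzdef
  have hz : z ∈ Subgroup.center (Subgroup.centralizer ({x} : Set G)) := Subgroup.mem_center_iff.2 fun c =>
    Subtype.ext (Subgroup.mem_centralizer_singleton_iff.1 c.2)
  have hzo : orderOf z = 2 := by rw [hzdef, Subgroup.orderOf_mk, hx]
  have hzP : IsPElem 2 z := ⟨1, by rw [hzo, pow_one]⟩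
  have hb := hind.1
  obtain ⟨hl, hT⟩ := KleinDefect.central_data hM hb hbd hz hzo
  obtain ⟨η₀, hη₀, hη₀z⟩ := exists_trivial_mem hM hb hz hzP
  set φ : (Subgroup.centralizer ({x} : Set G)) → ℂ := pRegularPart 2 (η₀ : (Subgroup.centralizer ({x} : Set G)) → ℂ) with hφ
  have hφ1 : φ 1 = (η₀ : (Subgroup.centralizer ({x} : Set G)) → ℂ) 1 := by rw [hφ, pRegularPart_apply, if_neg regular_one]
  have hφ1' : φ 1 ≠ 0 := hφ1 ▸ deg_ne_zero η₀
  have hφne : φ ≠ 0 := fun h => hφ1' (by rw [h]; rfl)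
  have hinner : 4 * classInner φ φ = 1 := by
    rw [hφ, classInner_pRegularPart]; exact hT η₀ hη₀ hη₀z
  have hmem : ∀ ξ ∈ b, pRegularPart 2 (ξ : (Subgroup.centralizer ({x} : Set G)) → ℂ) ∈ regSpan 2 b := fun ξ hξ =>
    Submodule.subset_span ⟨ξ, hξ, rfl⟩
  have hmult : ∀ ξ ∈ b, ∃ r : ℂ, pRegularPart 2 (ξ : (Subgroup.centralizer ({x} : Set G)) → ℂ) = r • φ := fun ξ hξ => by
    obtain ⟨r, hr⟩ := (finrank_eq_one_iff_of_nonzero' (⟨φ, hmem η₀ hη₀⟩ : regSpan 2 b)
      (fun h => hφne (congrArg Subtype.val h))).1 ((finrank_regSpan 2 b).trans hl) ⟨_, hmem ξ hξ⟩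
    exact ⟨r, (congrArg Subtype.val hr).symm⟩
  have htriv : ∀ η ∈ b, (η : (Subgroup.centralizer ({x} : Set G)) → ℂ) z = (η : (Subgroup.centralizer ({x} : Set G)) → ℂ) 1 → pRegularPart 2 (η : (Subgroup.centralizer ({x} : Set G)) → ℂ) = φ := by
    intro η hη hηz
    obtain ⟨r, hr⟩ := hmult η hη
    have h1 : (charDegree (η : (Subgroup.centralizer ({x} : Set G)) → ℂ) : ℂ) = r * (charDegree (η₀ : (Subgroup.centralizer ({x} : Set G)) → ℂ) : ℂ) := by
      have := congrFun hr 1
      rw [pRegularPart_apply, if_neg regular_one, Pi.smul_apply, hφ1, smul_eq_mul,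
        irr_one_eq_natCast, irr_one_eq_natCast] at this
      exact this
    have hpos := Nat.cast_ne_zero (R := ℂ).2 (charDegree_pos η₀).ne'
    have hrc : conj r = r := by
      have := congrArg conj h1
      rw [map_mul, map_natCast, map_natCast, h1] at this
      exact (mul_right_cancel₀ hpos this).symm
    have h2 := hT η hη hηz
    rw [← classInner_pRegularPart, hr, Char.classInner_smul_left, Char.classInner_smul_right, hrc,
      show 4 * (r * (r * classInner φ φ)) = r * r * (4 * classInner φ φ) by ring, hinner,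
      mul_one] at h2
    rcases mul_self_eq_one_iff.1 h2 with h | h
    · rw [hr, h, one_smul]
    · rw [h, neg_one_mul, eq_neg_iff_add_eq_zero] at h1
      have h3 : charDegree (η : (Subgroup.centralizer ({x} : Set G)) → ℂ) + charDegree (η₀ : (Subgroup.centralizer ({x} : Set G)) → ℂ) = 0 := by exact_mod_cast h1
      have := charDegree_pos η
      omega
  have hint : ∀ ξ ∈ b, ∃ m : ℤ, pRegularPart 2 (ξ : (Subgroup.centralizer ({x} : Set G)) → ℂ) = (m : ℂ) • φ := by
    intro ξ hξ
    obtain ⟨k, hk', he⟩ := exists_int_span hM hb hz hzP hξ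
    refine ⟨∑ η, k η, ?_⟩
    rw [he, Int.cast_sum, Finset.sum_smul]
    refine Finset.sum_congr rfl fun η _ => ?_
    by_cases h : k η = 0
    · simp [h]
    · rw [htriv η (hk' η h).1 (hk' η h).2]
  choose! m hm using hint
  choose a ha using fun (χ : IrrCharacter G) (ξ : IrrCharacter (Subgroup.centralizer ({x} : Set G))) =>
    KleinDefect.secCoeff_int (x := x) hx χ ξ
  set d : IrrCharacter G → ℤ := fun χ => ∑ ξ, if ξ ∈ b then a χ ξ * m ξ else 0 with hd
  have hsec : ∀ χ : IrrCharacter G, sectionMap 2 x b (χ : G → ℂ) = (d χ : ℂ) • φ := by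
    intro χ
    rw [sectionMap_eq_sum, hd, Int.cast_sum, Finset.sum_smul]
    refine Finset.sum_congr rfl fun ξ _ => ?_
    split_ifs with hξ
    · rw [hm ξ hξ, ha, smul_smul, Int.cast_mul]
    · simp
  have hout : ∀ χ, χ ∉ B → d χ = 0 := fun χ hχ => by
    have h := congrFun (hsec χ) 1
    rw [sectionMap_eq_zero hM hxp hind hχ, Pi.zero_apply, Pi.smul_apply, smul_eq_mul] at h
    exact_mod_cast (mul_eq_zero.1 h.symm).resolve_right hφ1'
  have hK : ∀ χ : IrrCharacter G, (2 : ℂ) ^ 2 * classInner (sectionMap 2 x b (χ : G → ℂ))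
      (sectionMap 2 x b (χ : G → ℂ)) = ((d χ * d χ : ℤ) : ℂ) := fun χ => by
    rw [hsec, Char.classInner_smul_left, Char.classInner_smul_right, map_intCast,
      show (2 : ℂ) ^ 2 * ((d χ : ℂ) * ((d χ : ℂ) * classInner φ φ)) =
        (d χ : ℂ) * (d χ : ℂ) * (4 * classInner φ φ) by ring, hinner, mul_one, Int.cast_mul]
  set S : Finset (IrrCharacter G) := Finset.univ.filter (· ∈ B) with hS
  have hSm : ∀ χ, χ ∈ S ↔ χ ∈ B := fun χ => by simp [hS]
  have hScard : S.card = 4 := by
    rw [← hk, ← Nat.card_eq_finsetCard]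
    exact Nat.card_congr (Equiv.subtypeEquivRight hSm)
  have hne : ∀ χ ∈ S, 1 ≤ d χ * d χ := fun χ hχ => by
    have h := redC_contrib_ne_zero hM hxp hind hbd ((hSm χ).1 hχ) ((hSm χ).1 hχ)
      (KleinDefect.height_eq_zero hM hind.2.1 hBd ((hSm χ).1 hχ))
      (KleinDefect.height_eq_zero hM hind.2.1 hBd ((hSm χ).1 hχ))
    rw [Nat.cast_ofNat, hK] at h
    have h0 : d χ ≠ 0 := fun h0 => h (by simp [h0, redC_zero])
    exact mul_self_pos.2 h0
  have hsum : ∑ χ ∈ S, d χ * d χ = 4 := by
    apply Int.cast_injective (α := ℂ)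
    rw [Int.cast_sum, Finset.sum_subset (Finset.subset_univ S) fun χ _ hχ => by
      rw [hout χ fun h => hχ ((hSm χ).2 h)]; simp]
    simp only [← hK]
    rw [← Finset.mul_sum, sum_contrib_self hM hxp hb, hl]
    norm_num
  have hpm : ∀ χ ∈ B, d χ = 1 ∨ d χ = -1 := fun χ hχ => by
    refine mul_self_eq_one_iff.1 (((Finset.sum_eq_sum_iff_of_le hne).1 ?_ χ ((hSm χ).2 hχ)).symm)
    rw [hsum, Finset.sum_const, hScard]; rfl
  refine ⟨φ, d, fun χ y => by rw [hsec, Pi.smul_apply, smul_eq_mul], hpm, hout, hφ1', fun y => ?_,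
    fun y hy => ?_⟩
  · rw [hφ, pRegularPart_apply]
    split_ifs
    · exact isIntegral_zero
    · obtain ⟨n, ρ, hρ⟩ := Char.isCharacter_of_isIrr η₀.2
      rw [← hρ]
      exact Char.isIntegral_character ρ y
  · have hval : ∀ ξ ∈ b, ∀ w : (Subgroup.centralizer ({x} : Set G)), ¬ 2 ∣ orderOf w → (ξ : (Subgroup.centralizer ({x} : Set G)) → ℂ) w = (m ξ : ℂ) * φ w :=
      fun ξ hξ w hw => by
        have := congrFun (hm ξ hξ) w
        rwa [pRegularPart_apply, if_neg hw, Pi.smul_apply, smul_eq_mul] at this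
    set T : Finset (IrrCharacter (Subgroup.centralizer ({x} : Set G))) := Finset.univ.filter (· ∈ b) with hTdef
    have hm2 : ∑ ξ ∈ T, (m ξ : ℂ) * (m ξ : ℂ) = 4 := by
      have h := sum_regInner_self hM hb
      rw [hl, Nat.cast_one, ← Finset.sum_filter] at h
      rw [← mul_one (4 : ℂ), ← h, Finset.mul_sum]
      refine Finset.sum_congr rfl fun ξ hξ => ?_
      rw [← classInner_pRegularPart, hm ξ (Finset.mem_filter.1 hξ).2, Char.classInner_smul_left,
        Char.classInner_smul_right, map_intCast,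
        show (4 : ℂ) * ((m ξ : ℂ) * ((m ξ : ℂ) * classInner φ φ)) =
          (m ξ : ℂ) * (m ξ : ℂ) * (4 * classInner φ φ) by ring, hinner, mul_one]
    have hvan : ∀ w : (Subgroup.centralizer ({x} : Set G)), 2 ∣ orderOf w → ∑ ξ ∈ T, (m ξ : ℂ) * (ξ : (Subgroup.centralizer ({x} : Set G)) → ℂ) w = 0 := by
      intro w hw
      have h := weak_orthogonality hM hb regular_one hw
      rw [← Finset.sum_filter] at h
      have h2 : φ 1 * ∑ ξ ∈ T, (m ξ : ℂ) * conj ((ξ : (Subgroup.centralizer ({x} : Set G)) → ℂ) w) = 0 := by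
        rw [Finset.mul_sum, ← h]
        refine Finset.sum_congr rfl fun ξ hξ => ?_
        rw [hval ξ (Finset.mem_filter.1 hξ).2 1 regular_one]
        ring
      have h3 := congrArg conj ((mul_eq_zero.1 h2).resolve_left hφ1')
      simpa [map_sum, map_mul] using h3
    have h := div_centralizer_mem hM T (fun ξ => (m ξ : ℂ)) (fun ξ _ => isIntegral_intCast _)
      (fun ξ : IrrCharacter (Subgroup.centralizer ({x} : Set G)) => (ξ : (Subgroup.centralizer ({x} : Set G)) → ℂ))
      (fun ξ _ => Char.isCharacter_of_isIrr ξ.2) hvan hy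
    have e : ∑ ξ ∈ T, (m ξ : ℂ) * (ξ : (Subgroup.centralizer ({x} : Set G)) → ℂ) y = 4 * φ y := by
      rw [← hm2, Finset.sum_mul]
      exact Finset.sum_congr rfl fun ξ hξ => by
        rw [hval ξ (Finset.mem_filter.1 hξ).2 y hy]; ring
    rwa [e] at h

/-- The columns of the sections away from the identity. -/
theorem exists_sections (hM : IsPModular 2 M) (hV : IsKleinFour P)
    (hmax : IsMaximalBrauerPair 2 M B P c) (hd : blockDefect 2 B = 2) {e : ℕ}
    (hk : Nat.card B = 4) (hl : blockRank 2 B = e) :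
    ∃ (ι : Type u) (_ : Fintype ι) (d : ι → IrrCharacter G → ℤ) (w : ι → G → ℂ),
      Fintype.card ι + e = 4 ∧ (∀ a, ∀ χ ∈ B, d a χ = 1 ∨ d a χ = -1) ∧
      (∀ a a', a ≠ a' → ∀ S : Finset (IrrCharacter G), (∀ χ, χ ∈ S ↔ χ ∈ B) →
        ∑ χ ∈ S, d a χ * d a' χ = 0) ∧
      (∀ a, ∀ g : G, ¬ 2 ∣ orderOf g → ∀ S : Finset (IrrCharacter G), (∀ χ, χ ∈ S ↔ χ ∈ B) →
        ∑ χ ∈ S, (d a χ : ℂ) * (χ : G → ℂ) g = 0) ∧
      (∀ χ ∈ B, ∀ g : G, 2 ∣ orderOf g → (χ : G → ℂ) g = ∑ a, (d a χ : ℂ) * w a g) ∧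
      (∀ a g, IsIntegral ℤ (w a g)) ∧
      ∀ a g, 4 * w a g / (Nat.card (Subgroup.centralizer ({g} : Set G)) : ℂ) ∈ locRing M := by
  classical
  haveI : Fact (Nat.Prime 2) := ⟨Nat.prime_two⟩
  haveI := Fintype.ofFinite G
  have hB : IsPBlock M B := hmax.1.2.1
  set X : Finset G := (Finset.univ.filter fun g : G => IsPElem 2 g).image
    fun g => (ConjClasses.mk g).out with hXdef
  have hout : ∀ g : G, IsConj g (ConjClasses.mk g).out := fun g =>
    ConjClasses.mk_eq_mk_iff_isConj.1 (Quotient.out_eq (ConjClasses.mk g)).symm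
  have hXp : ∀ x ∈ X, IsPElem 2 x := by
    intro x hx
    obtain ⟨g, hg, rfl⟩ := Finset.mem_image.1 hx
    obtain ⟨k, hk⟩ := (Finset.mem_filter.1 hg).2
    exact ⟨k, (orderOf_of_isConj (hout g)).trans hk⟩
  have hXrep : ∀ g : G, IsPElem 2 g → ∃! x, x ∈ X ∧ IsConj g x := by
    intro g hg
    refine ⟨(ConjClasses.mk g).out, ⟨Finset.mem_image.2 ⟨g, by simpa using hg, rfl⟩, hout g⟩, ?_⟩
    rintro y ⟨hy, hgy⟩
    obtain ⟨g', -, rfl⟩ := Finset.mem_image.1 hy
    rw [ConjClasses.mk_eq_mk_iff_isConj.2 (hgy.trans (hout g').symm)]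
  have h1X : (1 : G) ∈ X := by
    obtain ⟨x, ⟨hx, h1x⟩, -⟩ := hXrep 1 ⟨0, by simp⟩
    obtain ⟨a, ha⟩ := isConj_iff.1 h1x
    rw [← ha, mul_one, mul_inv_cancel] at hx
    exact hx
  haveI : ∀ x : G, Fintype (Subgroup.centralizer ({x} : Set G)) := fun x => Fintype.ofFinite _
  let ι := Σ x : {x // x ∈ X.erase 1}, {b : Set (IrrCharacter (Subgroup.centralizer ({x.1} : Set G))) //
    IsInducedBlock M (Subgroup.centralizer ({x.1} : Set G)) b B}
  haveI : ∀ x : {x // x ∈ X.erase 1}, Fintype {b : Set (IrrCharacter (Subgroup.centralizer ({x.1} : Set G))) //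
      IsInducedBlock M (Subgroup.centralizer ({x.1} : Set G)) b B} := fun x => Fintype.ofFinite _
  letI : Fintype ι := Sigma.instFintype
  have hx2 : ∀ a : ι, orderOf a.1.1 = 2 ∧ blockDefect 2 a.2.1 = 2 := fun a =>
    subsection_facts hM hV hmax hd (hXp _ (Finset.mem_erase.1 a.1.2).2) (Finset.mem_erase.1 a.1.2).1
      rfl a.2.2
  choose φ d hsec hpm hd0 hφ1 hφint hφdiv using fun a : ι =>
    exists_column hM (hx2 a).1 a.2.2 (hx2 a).2 hd hk
  let w : ι → G → ℂ := fun a g =>
    if h : ∃ s : Subgroup.centralizer ({a.1.1} : Set G), ¬ 2 ∣ orderOf s ∧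
      IsConj g (a.1.1 * (s : G)) then φ a h.choose else 0
  refine ⟨ι, inferInstance, d, w, ?_, hpm, ?_, ?_, ?_, ?_, ?_⟩
  · have hcount := card_block_eq_sum hM hB X hXp hXrep
    have hfin1 : (∑ᶠ b ∈ {b : Set (IrrCharacter (Subgroup.centralizer ({(1 : G)} : Set G))) |
        IsInducedBlock M (Subgroup.centralizer ({(1 : G)} : Set G)) b B}, blockRank 2 b) =
        blockRank 2 B := by
      rw [← finsum_bot hM hB]
      exact finsum_congr_subgroup (by rw [← centralizer_zpowers, Subgroup.zpowers_one_eq_bot])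
    have hone : ∀ x : {x // x ∈ X.erase 1},
        (∑ᶠ b ∈ {b : Set (IrrCharacter (Subgroup.centralizer ({x.1} : Set G))) |
          IsInducedBlock M (Subgroup.centralizer ({x.1} : Set G)) b B}, blockRank 2 b) =
        Fintype.card {b : Set (IrrCharacter (Subgroup.centralizer ({x.1} : Set G))) //
          IsInducedBlock M (Subgroup.centralizer ({x.1} : Set G)) b B} := by
      intro x
      rw [finsum_mem_congr rfl (g := fun _ => 1) fun b hb => ?_, finsum_mem_eq_toFinset_sum,
        Finset.sum_const, smul_eq_mul, mul_one]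
      · rw [← Set.ncard_eq_toFinset_card', Fintype.card_eq_nat_card]
        rfl
      · have hz : (⟨x.1, self_mem_centralizer x.1⟩ : Subgroup.centralizer ({x.1} : Set G)) ∈
            Subgroup.center _ := Subgroup.mem_center_iff.2 fun c =>
          Subtype.ext (Subgroup.mem_centralizer_singleton_iff.1 c.2)
        exact KleinDefect.blockRank_of_central hM hb.1 (hx2 ⟨x, b, hb⟩).2 hz
          (by rw [Subgroup.orderOf_mk]; exact (hx2 ⟨x, b, hb⟩).1)
    rw [← Finset.add_sum_erase X _ h1X, hfin1, ← Finset.sum_coe_sort (X.erase 1),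
      Finset.sum_congr rfl fun x _ => hone x, ← Fintype.card_sigma, hk, hl] at hcount
    rw [hcount, add_comm]
  · intro a a' hne S hS
    have h : ∑ χ : IrrCharacter G, sectionMap 2 a.1.1 a.2.1 (χ : G → ℂ) 1 *
        conj (sectionMap 2 a'.1.1 a'.2.1 (χ : G → ℂ) 1) = 0 := by
      refine sum_sectionMap_ne hM (hXp _ (Finset.mem_erase.1 a.1.2).2)
        (hXp _ (Finset.mem_erase.1 a'.1.2).2) a.2.2.1 a'.2.2.1 ?_
      by_cases hx : IsConj a.1.1 a'.1.1
      · obtain ⟨z, -, hu⟩ := hXrep a.1.1 (hXp _ (Finset.mem_erase.1 a.1.2).2)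
        have he : a.1.1 = a'.1.1 := (hu _ ⟨(Finset.mem_erase.1 a.1.2).2, IsConj.refl _⟩).trans
          (hu _ ⟨(Finset.mem_erase.1 a'.1.2).2, hx⟩).symm
        refine Or.inr ⟨he, fun hh => hne ?_⟩
        obtain ⟨⟨x, hx1⟩, b, hb⟩ := a
        obtain ⟨⟨x', hx1'⟩, b', hb'⟩ := a'
        dsimp only at he hh
        subst he
        obtain rfl := eq_of_heq hh
        rfl
      · exact Or.inl hx
    have h' : (φ a 1 * conj (φ a' 1)) * ((∑ χ ∈ S, d a χ * d a' χ : ℤ) : ℂ) = 0 := by
      rw [Int.cast_sum, Finset.sum_subset (Finset.subset_univ S) fun χ _ hχ => by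
        rw [hd0 a χ fun h => hχ ((hS χ).2 h)]; simp, Finset.mul_sum, ← h]
      refine Finset.sum_congr rfl fun χ _ => ?_
      rw [hsec, hsec, map_mul, map_intCast, Int.cast_mul]
      ring
    exact_mod_cast (mul_eq_zero.1 h').resolve_left (mul_ne_zero (hφ1 a) ((map_ne_zero _).2 (hφ1 a')))
  · intro a g hg S hS
    have h := sum_sectionMap_regular hM (hXp _ (Finset.mem_erase.1 a.1.2).2)
      (Finset.mem_erase.1 a.1.2).1 a.2.2.1 hg
    have h' : φ a 1 * ∑ χ ∈ S, (d a χ : ℂ) * conj ((χ : G → ℂ) g) = 0 := by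
      rw [Finset.sum_subset (Finset.subset_univ S) fun χ _ hχ => by
        rw [hd0 a χ fun h => hχ ((hS χ).2 h)]; simp, Finset.mul_sum, ← h]
      refine Finset.sum_congr rfl fun χ _ => ?_
      rw [hsec]
      ring
    have h'' := congrArg conj ((mul_eq_zero.1 h').resolve_left (hφ1 a))
    simpa [map_sum, map_mul] using h''
  · intro χ hχ g hg
    obtain ⟨z, hz⟩ := exists_isPPart (p := 2) g
    obtain ⟨s, hzs, hcom, hzp, hs⟩ := id hz
    obtain ⟨x, ⟨hx, hconj⟩, huniq⟩ := hXrep z hzp
    have hx1 : x ≠ 1 := by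
      rintro rfl
      obtain ⟨k, hk'⟩ := isConj_iff.1 hconj
      rw [conj_eq_one_iff] at hk'
      rw [hk', one_mul] at hzs
      exact hs (hzs ▸ hg)
    obtain ⟨k, hk'⟩ := isConj_iff.1 hconj
    have hcx : Commute x (k * s * k⁻¹) := by
      rw [← hk']; exact hcom.map (MulAut.conj k).toMonoidHom
    have hex : ∃ t : Subgroup.centralizer ({x} : Set G), ¬ 2 ∣ orderOf t ∧
        IsConj g (x * (t : G)) := by
      refine ⟨⟨k * s * k⁻¹, Subgroup.mem_centralizer_singleton_iff.2 hcx.symm.eq⟩,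
        by rw [Subgroup.orderOf_mk, orderOf_conj_eq]; exact hs, isConj_iff.2 ⟨k, ?_⟩⟩
      show k * g * k⁻¹ = x * (k * s * k⁻¹)
      rw [← hzs, ← hk']
      group
    have hval : (χ : G → ℂ) g = ∑ b : {b : Set (IrrCharacter (Subgroup.centralizer ({x} : Set G))) //
        IsInducedBlock M (Subgroup.centralizer ({x} : Set G)) b B},
        (d ⟨⟨x, Finset.mem_erase.2 ⟨hx1, hx⟩⟩, b⟩ χ : ℂ) *
          w ⟨⟨x, Finset.mem_erase.2 ⟨hx1, hx⟩⟩, b⟩ g := by
      obtain ⟨l, hl'⟩ := isConj_iff.1 hex.choose_spec.2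
      have hsum := sum_induced_blockPart hM (hXp x hx) B hB χ hex.choose_spec.1
      rw [if_pos hχ] at hsum
      rw [← Char.isClassFunction_of_isIrr χ.2 g l, hl', ← hsum]
      refine (Finset.sum_subtype _ (fun b => ?_) _).trans (Finset.sum_congr rfl fun b _ => ?_)
      · rw [Finset.mem_filter, mem_blocks]
        exact ⟨fun h => h.2, fun h => ⟨h.1, h⟩⟩
      · simp only [w, dif_pos hex]
        rw [← hsec, sectionMap_eq_blockPart b.1 (Char.isClassFunction_of_isIrr χ.2),
          pRegularPart_apply, if_neg hex.choose_spec.1]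
    rw [hval]
    refine Eq.trans ?_ (Fintype.sum_sigma fun a : ι => (d a χ : ℂ) * w a g).symm
    rw [Finset.sum_eq_single (⟨x, Finset.mem_erase.2 ⟨hx1, hx⟩⟩ : {x // x ∈ X.erase 1})]
    · exact Finset.sum_congr (by convert rfl) fun _ _ => rfl
    · intro x' _ hne
      refine Finset.sum_eq_zero fun b _ => ?_
      simp only [w]
      rw [dif_neg, mul_zero]
      rintro ⟨t, ht, htc⟩
      obtain ⟨l, hl'⟩ := isConj_iff.1 htc
      have h1 := IsPPart.conj hz l
      rw [hl'] at h1
      have hx' := Finset.mem_erase.1 x'.2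
      have h2 := IsPPart.unique h1 (isPPart_mul (hXp x'.1 hx'.2)
        (show ¬ 2 ∣ orderOf (t : G) by rwa [Subgroup.orderOf_coe])
        (Subgroup.mem_centralizer_singleton_iff.1 t.2).symm)
      exact hne (Subtype.ext (huniq x'.1 ⟨hx'.2, isConj_iff.2 ⟨l, h2⟩⟩))
    · simp
  · intro a g
    simp only [w]
    split_ifs
    exacts [hφint a _, isIntegral_zero]
  · intro a g
    simp only [w]
    split_ifs with h
    · obtain ⟨l, hl'⟩ := isConj_iff.1 h.choose_spec.2
      rw [← card_centralizer_conj l g, hl',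
        card_centralizer_mul (hXp _ (Finset.mem_erase.1 a.1.2).2) _ h.choose_spec.1]
      exact hφdiv a _ h.choose_spec.1
    · simp only [mul_zero, zero_div]
      exact zero_mem _

end Klein

end Cfsg.Agent.Lib.Block.KleinSections
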