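import Cfsg.Agent.Lib.Block.CentralQuotient
import Cfsg.Agent.Lib.Block.KleinSections
import Cfsg.Agent.Lib.CharTools.ClassMult

/-!
# The regular restrictions of a block and of the block it dominates in a quotient by a `p`-subgroup

When `G = P C(P)`, the regular restrictions of a block of `G` are integral combinations of any basis
that spans the regular restrictions of the block of `G ⧸ P` below it.
-/

namespace Cfsg.Agent.Lib.Block

open Cfsg
open scoped ComplexConjugate

set_option linter.unusedSectionVars false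
set_option linter.style.haveILetI false

universe u

variable {p : ℕ} {M : Ideal AlgInt} [M.IsPrime] {G : Type u} [Group G] [Finite G]

/-- The sum of a class function over the group, divided by the order, class by class. -/
theorem sum_div_card_eq_sum_classes [Fintype G] [Fintype (ConjClasses G)] {f : G → ℂ}
    (hf : IsClassFunction G f) :
    (∑ g : G, f g) / (Nat.card G : ℂ) =
      ∑ C : ConjClasses G, f C.out / (Nat.card (Subgroup.centralizer ({C.out} : Set G)) : ℂ) := by
  classical
  have h1 : ∑ g : G, f g = ∑ C : ConjClasses G, ∑ g : G, CharTools.classInd C.out g * f g := by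
    rw [Finset.sum_comm]
    refine Finset.sum_congr rfl fun g _ => ?_
    have hmk : ∀ C : ConjClasses G, ConjClasses.mk C.out = C := fun C => Quotient.out_eq C
    rw [Finset.sum_eq_single (ConjClasses.mk g)]
    · rw [CharTools.classInd_of (ConjClasses.mk_eq_mk_iff_isConj.1 (hmk (ConjClasses.mk g)).symm),
        one_mul]
    · intro C _ hC
      rw [CharTools.classInd_of_not, zero_mul]
      intro h
      exact hC (by rw [ConjClasses.mk_eq_mk_iff_isConj.2 h, hmk])
    · simp
  rw [h1, Finset.sum_div]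
  refine Finset.sum_congr rfl fun C _ => ?_
  rw [CharTools.sum_classInd_mul hf]
  have hG := Char.card_ne_zero_complex G
  have hC : (Nat.card (Subgroup.centralizer ({C.out} : Set G)) : ℂ) ≠ 0 :=
    Nat.cast_ne_zero.2 Nat.card_pos.ne'
  have hi : (Nat.card (Subgroup.centralizer ({C.out} : Set G)) : ℂ) *
      ((Subgroup.centralizer ({C.out} : Set G)).index : ℂ) = (Nat.card G : ℂ) := by
    exact_mod_cast Subgroup.card_mul_index _
  field_simp
  linear_combination f C.out * hi

open scoped Classical in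
/-- A member of a block takes at regular elements the values of a combination of the characters of
the quotient below the block. -/
theorem exists_descent (hM : IsPModular p M) {P : Subgroup G} [P.Normal] [Fintype (G ⧸ P)]
    (hP : IsPGroup p P) (hG : P ⊔ Subgroup.centralizer (P : Set G) = ⊤)
    {b : Set (IrrCharacter G)} (hb : IsPBlock M b) {bb : Set (IrrCharacter (G ⧸ P))}
    (hmem : ∀ ψ, (Char.inflateEquiv P ψ).1 ∈ b ↔ ψ ∈ bb) {ξ : IrrCharacter G} (hξ : ξ ∈ b) :
    ∃ F : G ⧸ P → ℂ, (∀ g : G, ¬ p ∣ orderOf g → F (g : G ⧸ P) = (ξ : G → ℂ) g) ∧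
      (∀ q, p ∣ orderOf q → F q = 0) ∧ IsClassFunction (G ⧸ P) F ∧
      ∀ g : G, ¬ p ∣ orderOf g → (ξ : G → ℂ) g = ∑ ψ : IrrCharacter (G ⧸ P),
        if ψ ∈ bb then classInner F (ψ : G ⧸ P → ℂ) * (ψ : G ⧸ P → ℂ) (g : G ⧸ P) else 0 := by
  haveI : Fact p.Prime := ⟨hM.1⟩
  haveI := Fintype.ofFinite G
  choose r hr1 hr2 using fun (q : G ⧸ P) (hq : ¬ p ∣ orderOf q) => exists_regular_rep hP hq
  let F : G ⧸ P → ℂ := fun q => if hq : p ∣ orderOf q then 0 else (ξ : G → ℂ) (r q hq)
  have hF : ∀ g : G, ¬ p ∣ orderOf g → F (g : G ⧸ P) = (ξ : G → ℂ) g := fun g hg => by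
    simp only [F, dif_neg (regular_mk (P := P) hg)]
    rw [eq_of_regular_mk_eq hM hP hG (hr1 _ _) hg (hr2 _ _)]
  have hF0 : ∀ q : G ⧸ P, p ∣ orderOf q → F q = 0 := fun q hq => by simp only [F, dif_pos hq]
  have hFc : IsClassFunction (G ⧸ P) F := fun q c => by
    by_cases hq : p ∣ orderOf q
    · rw [hF0 q hq, hF0 _ (by rwa [orderOf_conj_eq])]
    · obtain ⟨t, ht, rfl⟩ := exists_regular_rep hP hq
      obtain ⟨d, rfl⟩ := QuotientGroup.mk_surjective c
      rw [← QuotientGroup.mk_inv, ← QuotientGroup.mk_mul, ← QuotientGroup.mk_mul, hF t ht,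
        hF _ (by rwa [orderOf_conj_eq]), Char.isClassFunction_of_isIrr ξ.2]
  refine ⟨F, hF, hF0, hFc, fun g hg => ?_⟩
  have hexp : pRegularPart p (ξ : G → ℂ) = ∑ ψ : IrrCharacter (G ⧸ P),
      classInner F (ψ : G ⧸ P → ℂ) • pRegularPart p ((Char.inflateEquiv P ψ).1 : G → ℂ) := by
    funext y
    simp only [Finset.sum_apply, Pi.smul_apply, smul_eq_mul, pRegularPart_apply]
    by_cases hy : p ∣ orderOf y
    · simp [hy]
    · simp only [hy, if_false, Char.inflateEquiv_apply]
      rw [← hF y hy]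
      conv_lhs => rw [Char.eq_sum_classInner_smul hFc]
      simp only [Finset.sum_apply, Pi.smul_apply, smul_eq_mul]
  have h := congrArg (blockProj p b) hexp
  rw [blockProj_pRegularPart hM hb, if_pos hξ, map_sum] at h
  have h' := congrFun h g
  rw [pRegularPart_apply, if_neg hg, Finset.sum_apply] at h'
  rw [h']
  refine Finset.sum_congr rfl fun ψ _ => ?_
  rw [map_smul, blockProj_pRegularPart hM hb]
  by_cases hψ : ψ ∈ bb
  · rw [if_pos ((hmem ψ).2 hψ), if_pos hψ, Pi.smul_apply, pRegularPart_apply, if_neg hg,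
      Char.inflateEquiv_apply, smul_eq_mul]
  · rw [if_neg fun hm => hψ ((hmem ψ).1 hm), if_neg hψ, smul_zero, Pi.zero_apply]

/-- The rank of a block is at most the number of characters of the block below it. -/
theorem blockRank_le_card_quotient (hM : IsPModular p M) {P : Subgroup G} [P.Normal]
    (hP : IsPGroup p P) (hG : P ⊔ Subgroup.centralizer (P : Set G) = ⊤)
    {b : Set (IrrCharacter G)} (hb : IsPBlock M b) {bb : Set (IrrCharacter (G ⧸ P))}
    (hmem : ∀ ψ, (Char.inflateEquiv P ψ).1 ∈ b ↔ ψ ∈ bb) :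
    blockRank p b ≤ Nat.card bb := by
  classical
  haveI := Fintype.ofFinite (G ⧸ P)
  rw [← finrank_regSpan]
  have hle : regSpan p b ≤ Submodule.span ℂ (Set.range fun ψ : bb =>
      pRegularPart p fun g : G => ((ψ : IrrCharacter (G ⧸ P)) : G ⧸ P → ℂ) (g : G ⧸ P)) := by
    refine Submodule.span_le.2 ?_
    rintro _ ⟨ξ, hξ, rfl⟩
    obtain ⟨F, -, -, -, hd⟩ := exists_descent hM hP hG hb hmem hξ
    refine (Submodule.mem_span_range_iff_exists_fun ℂ).2
      ⟨fun ψ => classInner F ((ψ : IrrCharacter (G ⧸ P)) : G ⧸ P → ℂ), funext fun g => ?_⟩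
    simp only [Finset.sum_apply, Pi.smul_apply, smul_eq_mul, pRegularPart_apply]
    by_cases hg : p ∣ orderOf g
    · simp [hg]
    · simp only [if_neg hg]
      rw [hd g hg, Finset.sum_ite, Finset.sum_const_zero, add_zero,
        Finset.sum_subtype _ (p := fun ψ => ψ ∈ bb) (fun ψ => by simp)]
  refine (Submodule.finrank_mono hle).trans ((finrank_range_le_card _).trans ?_)
  rw [Nat.card_eq_fintype_card]

/-- An integral combination of the members of a block that pairs to zero with the regular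
restrictions vanishes at singular elements. -/
theorem sum_eq_zero_of_dual [Fintype G] (hM : IsPModular p M) {b : Set (IrrCharacter G)}
    (hb : IsPBlock M b) {ι : Type*} [Fintype ι] {W : ι → G → ℂ} (dm : IrrCharacter G → ι → ℤ)
    (hli : LinearIndependent ℂ W)
    (hdm : ∀ ψ ∈ b, pRegularPart p (ψ : G → ℂ) = ∑ i, (dm ψ i : ℂ) • W i)
    [DecidablePred (· ∈ b)] (i : ι) {h : G} (hh : p ∣ orderOf h) :
    ∑ ψ : IrrCharacter G, (if ψ ∈ b then (dm ψ i : ℂ) * (ψ : G → ℂ) h else 0) = 0 := by
  classical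
  have key : ∑ j, conj (∑ ψ : IrrCharacter G,
      if ψ ∈ b then (dm ψ j : ℂ) * (ψ : G → ℂ) h else 0) • W j = 0 := by
    funext g
    simp only [Finset.sum_apply, Pi.smul_apply, smul_eq_mul, map_sum, Finset.sum_mul, Pi.zero_apply]
    rw [Finset.sum_comm]
    have hterm : ∀ ψ : IrrCharacter G,
        ∑ j, conj (if ψ ∈ b then (dm ψ j : ℂ) * (ψ : G → ℂ) h else 0) * W j g =
          if ψ ∈ b then pRegularPart p (ψ : G → ℂ) g * conj ((ψ : G → ℂ) h) else 0 := by
      intro ψ
      split_ifs with hψ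
      · rw [hdm ψ hψ]
        simp only [Finset.sum_apply, Pi.smul_apply, smul_eq_mul, map_mul, map_intCast,
          Finset.sum_mul]
        exact Finset.sum_congr rfl fun j _ => by ring
      · simp
    rw [Finset.sum_congr rfl fun ψ _ => hterm ψ]
    by_cases hg : p ∣ orderOf g
    · exact Finset.sum_eq_zero fun ψ _ => by simp [pRegularPart_apply, hg]
    · refine Eq.trans (Finset.sum_congr rfl fun ψ _ => ?_) (weak_orthogonality hM hb hg hh)
      simp [pRegularPart_apply, hg]
  have h1 := Fintype.linearIndependent_iff.1 hli _ key i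
  exact (map_eq_zero (starRingEnd ℂ)).1 h1

open scoped Classical in
/-- The values at regular elements of a member of a block are integral combinations of a basis of
the regular restrictions of the block below it. -/
theorem exists_int_descent (hM : IsPModular p M) {P : Subgroup G} [P.Normal]
    (hP : IsPGroup p P) (hG : P ⊔ Subgroup.centralizer (P : Set G) = ⊤)
    {b : Set (IrrCharacter G)} (hb : IsPBlock M b) {bb : Set (IrrCharacter (G ⧸ P))}
    (hbb : IsPBlock M bb) (hmem : ∀ ψ, (Char.inflateEquiv P ψ).1 ∈ b ↔ ψ ∈ bb)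
    {ι : Type*} [Fintype ι] {W : ι → G ⧸ P → ℂ} (dm : IrrCharacter (G ⧸ P) → ι → ℤ)
    (hli : LinearIndependent ℂ W)
    (hdm : ∀ ψ ∈ bb, pRegularPart p (ψ : G ⧸ P → ℂ) = ∑ i, (dm ψ i : ℂ) • W i)
    {ξ : IrrCharacter G} (hξ : ξ ∈ b) :
    ∃ z : ι → ℤ, ∀ g : G, ¬ p ∣ orderOf g →
      (ξ : G → ℂ) g = ∑ i, (z i : ℂ) * W i (g : G ⧸ P) := by
  haveI : Fact p.Prime := ⟨hM.1⟩
  haveI := Fintype.ofFinite G
  haveI := Fintype.ofFinite (G ⧸ P)
  haveI := Fintype.ofFinite (ConjClasses (G ⧸ P))
  obtain ⟨F, hF, hF0, hFc, hd⟩ := exists_descent hM hP hG hb hmem hξ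
  let a : ι → ℂ := fun i => ∑ ψ : IrrCharacter (G ⧸ P),
    if ψ ∈ bb then classInner F (ψ : G ⧸ P → ℂ) * (dm ψ i : ℂ) else 0
  -- the coefficients have bounded denominators
  have hden : ∀ i, ∃ z : ℤ, (z : ℂ) / (p : ℂ) ^ blockDefect p b = a i := by
    intro i
    have hterm : ∀ ψ : IrrCharacter (G ⧸ P), ∃ z : ℤ,
        (p : ℂ) ^ blockDefect p b * classInner F (ψ : G ⧸ P → ℂ) = (z : ℂ) := by
      intro ψ
      obtain ⟨z, hz⟩ := exists_int_regInner hM hb rfl (η := (Char.inflateEquiv P ψ).1) hξ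
      refine ⟨(Nat.card P : ℤ) * z, ?_⟩
      rw [regInner_inflate hM hP hG (φ := (ξ : G → ℂ))
        (ψ := ((Char.inflateEquiv P ψ).1 : G → ℂ)) hF hF0
        (fun g => (Char.inflateEquiv_apply P ψ g).symm), mul_left_comm, hz]
      push_cast
      rfl
    choose z hz using hterm
    refine ⟨∑ ψ : IrrCharacter (G ⧸ P), if ψ ∈ bb then z ψ * dm ψ i else 0, ?_⟩
    rw [div_eq_iff (pow_ne_zero _ (Nat.cast_ne_zero.2 hM.1.ne_zero)), mul_comm (a i)]
    simp only [a, Finset.mul_sum, Int.cast_sum, apply_ite (Int.cast : ℤ → ℂ), Int.cast_mul,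
      Int.cast_zero]
    refine Finset.sum_congr rfl fun ψ _ => ?_
    split_ifs
    · rw [← mul_assoc, hz]
    · rw [mul_zero]
  -- and are integral at `p`
  have hloc : ∀ i, a i ∈ locRing M := by
    intro i
    let Φ : G ⧸ P → ℂ := fun q => ∑ ψ : IrrCharacter (G ⧸ P),
      if ψ ∈ bb then (dm ψ i : ℂ) * (ψ : G ⧸ P → ℂ) q else 0
    have hΦc : IsClassFunction (G ⧸ P) Φ := fun q c =>
      Finset.sum_congr rfl fun ψ _ => by rw [Char.isClassFunction_of_isIrr ψ.2 q c]
    have hΦinv : ∀ q, Φ q⁻¹ = conj (Φ q) := by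
      intro q
      simp only [Φ, map_sum, apply_ite (starRingEnd ℂ), map_mul, map_intCast, map_zero]
      exact Finset.sum_congr rfl fun ψ _ => by rw [Char.char_inv (Char.isCharacter_of_isIrr ψ.2)]
    have hai : a i = (∑ q : G ⧸ P, F q * conj (Φ q)) / (Nat.card (G ⧸ P) : ℂ) := by
      simp only [a, Φ, classInner, map_sum, apply_ite (starRingEnd ℂ), map_mul, map_intCast, map_zero,
        Finset.mul_sum, Finset.sum_div]
      rw [Finset.sum_comm]
      refine Finset.sum_congr rfl fun ψ _ => ?_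
      split_ifs
      · rw [Finset.sum_mul]
        exact Finset.sum_congr rfl fun q _ => by ring
      · simp
    rw [hai, sum_div_card_eq_sum_classes (fun q c => by rw [hFc q c, hΦc q c])]
    refine sum_mem fun C _ => ?_
    by_cases hC : p ∣ orderOf C.out
    · rw [hF0 _ hC, zero_mul, zero_div]
      exact zero_mem _
    · obtain ⟨t, ht, hte⟩ := exists_regular_rep hP hC
      rw [mul_div_assoc]
      refine mul_mem ?_ ?_
      · rw [← hte, hF t ht]
        exact integral_mem_locRing (Char.char_isIntegral (Char.isCharacter_of_isIrr ξ.2) t)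
      · have hx : ¬ p ∣ orderOf (C.out)⁻¹ := by rwa [orderOf_inv]
        have h := KleinSections.div_centralizer_mem hM
          (Finset.univ.filter fun ψ : IrrCharacter (G ⧸ P) => ψ ∈ bb)
          (fun ψ => (dm ψ i : ℂ)) (fun ψ _ => isIntegral_algebraMap (R := ℤ) (x := dm ψ i))
          (fun ψ => (ψ : G ⧸ P → ℂ)) (fun ψ _ => Char.isCharacter_of_isIrr ψ.2)
          (fun q hq => by
            rw [Finset.sum_filter]
            exact sum_eq_zero_of_dual hM hbb dm hli hdm i hq) hx
        rw [Finset.sum_filter] at h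
        rw [← hΦinv]
        have hcen : Subgroup.centralizer ({(C.out)⁻¹} : Set (G ⧸ P)) =
            Subgroup.centralizer ({C.out} : Set (G ⧸ P)) := by
          ext y
          simp only [Subgroup.mem_centralizer_singleton_iff]
          exact ⟨fun hy => by simpa using (Commute.inv_right (hy : Commute y _)).eq,
            fun hy => (Commute.inv_right (hy : Commute y _)).eq⟩
        rwa [hcen] at h
  have hint : ∀ i, ∃ z : ℤ, (z : ℂ) = a i := by
    intro i
    obtain ⟨z, hz⟩ := hden i
    obtain ⟨y, rfl⟩ := dvd_of_div_pow_mem hM _ (hz ▸ hloc i : (z : ℂ) / _ ∈ locRing M)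
    refine ⟨y, ?_⟩
    rw [← hz]
    push_cast
    field_simp [Nat.cast_ne_zero.2 hM.1.ne_zero]
  choose z hz using hint
  refine ⟨z, fun g hg => ?_⟩
  rw [hd g hg]
  simp only [hz, a, Finset.sum_mul]
  rw [Finset.sum_comm]
  refine Finset.sum_congr rfl fun ψ _ => ?_
  split_ifs with hψ
  · have h := congrFun (hdm ψ hψ) (g : G ⧸ P)
    rw [pRegularPart_apply, if_neg (regular_mk hg)] at h
    rw [h]
    simp only [Finset.sum_apply, Pi.smul_apply, smul_eq_mul, Finset.mul_sum]
    exact Finset.sum_congr rfl fun j _ => by ring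
  · simp

end Cfsg.Agent.Lib.Block
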