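import Cfsg.Agent.Lib.Block.FirstMain
import Cfsg.Agent.Lib.Block.Principal
import Cfsg.Agent.Lib.Block.PrincipalSolvable
import Cfsg.Agent.Lib.CharAux
import Cfsg.Agent.Lib.CharGalois
import Cfsg.Agent.Lib.Char.Integral
import Cfsg.Agent.Lib.Char.Degree

/-!
# A criterion for a single 2-block
-/

set_option autoImplicit false

namespace Cfsg.Agent.Lib.Block

open Cfsg
open scoped ComplexConjugate

universe u

variable {p : ℕ} {G : Type u} [Group G] [Finite G]

/-- If no character has defect zero and centralisers of elements of order `p` have self-centralising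
normal `p`-subgroups, there is only one block. -/
theorem sameBlock_of_constrained {M : Ideal AlgInt} (hM : IsPModular p M)
    (hloc : ∀ x : G, orderOf x = p → ∃ Q : Subgroup G, IsPGroup p Q ∧
      Q ≤ Subgroup.centralizer ({x} : Set G) ∧
      Subgroup.centralizer ({x} : Set G) ≤ Subgroup.normalizer (Q : Set G) ∧
      Subgroup.centralizer ({x} : Set G) ⊓ Subgroup.centralizer (Q : Set G) ≤ Q)
    (hzero : ∀ χ : IrrCharacter G,
      (charDegree (χ : G → ℂ)).factorization p ≠ (Nat.card G).factorization p)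
    (χ ψ : IrrCharacter G) : SameBlock M (χ : G → ℂ) (ψ : G → ℂ) := by
  have := hM.2.1.isPrime
  haveI : Fact p.Prime := ⟨hM.1⟩
  have key : ∀ B : Set (IrrCharacter G), IsPBlock M B → B = principalBlock M G := by
    intro B hB
    obtain ⟨D, hD⟩ := exists_isDefectGroup hM hB
    obtain ⟨hDp, hDc, -⟩ := IsDefectGroup.props hM hB hD
    have hd : blockDefect p B ≠ 0 := by
      intro h0
      obtain ⟨θ, hθ, hmin⟩ := exists_height_zero hB p
      rw [blockDefect_eq_of_min hθ hmin, Nat.sub_eq_zero_iff_le] at h0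
      exact hzero θ (le_antisymm (factorization_charDegree_le θ p) h0)
    have hdvd : p ∣ Nat.card D := by rw [hDc]; exact dvd_pow_self p hd
    obtain ⟨x, hx⟩ := exists_prime_orderOf_dvd_card' p hdvd
    have hxo : orderOf (x : G) = p := by rw [Subgroup.orderOf_coe, hx]
    set P := Subgroup.zpowers (x : G)
    set H := Subgroup.centralizer ({(x : G)} : Set G) with hH
    have hP : IsPGroup p P := IsPGroup.of_card (n := 1) (by rw [Nat.card_zpowers, hxo, pow_one])
    have hPH : P ≤ H := by
      rw [Subgroup.zpowers_le, hH, Subgroup.mem_centralizer_singleton_iff]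
    have hCH : Subgroup.centralizer (P : Set G) ≤ H :=
      Subgroup.centralizer_le (by simp [P])
    have hHN : H ≤ Subgroup.normalizer (P : Set G) := by
      refine le_trans ?_ (Subgroup.centralizer_le_normalizer _)
      intro g hg
      rw [hH, Subgroup.mem_centralizer_singleton_iff] at hg
      refine Subgroup.mem_centralizer_iff.2 fun y hy => ?_
      obtain ⟨i, rfl⟩ := Subgroup.mem_zpowers_iff.1 hy
      exact ((show Commute g (x : G) from hg).zpow_right i).eq.symm
    obtain ⟨b, hb⟩ := exists_inducing_block hM hP hPH hCH hHN hB hD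
      (by rw [Subgroup.zpowers_le]; exact x.2)
    obtain ⟨Q, hQ, hQH, hHQ, hQC⟩ := hloc (x : G) hxo
    haveI : (Q.subgroupOf H).Normal := Subgroup.normal_subgroupOf_of_le_normalizer hHQ
    have hbP : b = principalBlock M H := by
      refine eq_principal_of_centralizer_le hM (Q := Q.subgroupOf H) hQ.comap_subtype ?_ hb.1
      intro z hz
      rw [Subgroup.mem_subgroupOf]
      refine hQC (Subgroup.mem_inf.2 ⟨z.2, Subgroup.mem_centralizer_iff.2 fun q hq => ?_⟩)
      exact congrArg Subtype.val
        (Subgroup.mem_centralizer_iff.1 hz ⟨q, hQH hq⟩ (Subgroup.mem_subgroupOf.2 hq))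
    exact (induced_principal_iff hM hb).2 hbP
  have h := key _ (isPBlock_blockOf χ)
  have h' := key _ (isPBlock_blockOf ψ)
  have hψ : ψ ∈ blockOf M (χ : G → ℂ) := by rw [h, ← h']; exact mem_blockOf_self ψ
  exact hψ

open Cfsg.Agent.Lib.Char Cfsg.Agent.Lib.CharGalois

/-- An element of order three conjugate to its inverse has an integral value. -/
theorem exists_int_of_three {χ : G → ℂ} (hχ : IsCharacter G χ) {x : G} (hx : x ^ 3 = 1)
    (hc : IsConj x x⁻¹) : ∃ t : ℤ, χ x = (t : ℂ) := by
  refine exists_int_of_fixed (char_isIntegral hχ x) fun σ => ?_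
  obtain ⟨k, hk, hσ⟩ := exists_pow_of_aut (Nat.card_pos (α := G)) σ
  rw [aut_apply_char hσ hχ x]
  by_cases hx1 : x = 1
  · rw [hx1, one_pow]
  have : Fact (Nat.Prime 3) := ⟨Nat.prime_three⟩
  have ho : orderOf x = 3 := orderOf_eq_prime hx hx1
  have h3 : ¬ 3 ∣ k := fun h =>
    absurd (Nat.dvd_gcd h (ho ▸ orderOf_dvd_natCard x)) (by rw [hk]; decide)
  rw [← pow_mod_orderOf, ho]
  rcases (show k % 3 = 1 ∨ k % 3 = 2 by omega) with h | h <;> rw [h]
  · rw [pow_one]
  · have hinv : x ^ 2 = x⁻¹ := eq_inv_of_mul_eq_one_left (by rw [← pow_succ, hx])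
    rw [hinv]
    obtain ⟨c, hc⟩ := isConj_iff.1 hc
    rw [← hc]
    exact isClassFunction_of_isCharacter hχ x c

/-- Data of a character at an element: degree, value and integrality. -/
theorem dvd_classSize_mul {χ : G → ℂ} (hχ : IsIrrCharacter G χ) {g : G} {t : ℤ}
    (ht : χ g = (t : ℂ)) {n : ℕ} (hn : (Subgroup.centralizer ({g} : Set G)).index = n) :
    (charDegree χ : ℤ) ∣ (n : ℤ) * t := by
  have := Fintype.ofFinite G
  have h := isIntegral_classSize_mul_div hχ g
  rw [ht, hn, CharAux.charDegree_eq (isCharacter_of_isIrr hχ)] at h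
  have hd : (charDegree χ : ℤ) ≠ 0 := by exact_mod_cast (CharAux.charDegree_pos hχ).ne'
  obtain ⟨z, hz⟩ := exists_int_of_isIntegral
    (q := ((n : ℤ) * t : ℤ) / ((charDegree χ : ℤ) : ℚ)) (by push_cast; exact h)
  refine ⟨z, ?_⟩
  rw [div_eq_iff (by exact_mod_cast hd)] at hz
  have : (((n : ℤ) * t : ℤ) : ℚ) = ((charDegree χ : ℤ) * z : ℤ) := by rw [hz]; push_cast; ring
  exact_mod_cast this

/-- The sum of the values over a subgroup is a multiple of its order. -/
theorem card_dvd_sum_values [Fintype G] {χ : G → ℂ} (hχ : IsCharacter G χ) (P : Subgroup G)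
    (s : Finset G) (hs : ∀ g, g ∈ s ↔ g ∈ P) {S : ℤ} (hS : ∑ g ∈ s, χ g = (S : ℂ)) :
    (Nat.card P : ℤ) ∣ S := by
  classical
  obtain ⟨m, hm⟩ := classInner_natCast (isCharacter_restrict hχ P)
    (isCharacter_of_isIrr (Char.isIrrCharacter_one (G := P)))
  refine ⟨m, ?_⟩
  have e : ∑ g : P, χ g = ∑ g ∈ s, χ g :=
    (Finset.sum_subtype s (p := fun g => g ∈ P) hs χ).symm
  simp only [classInner, map_one, mul_one] at hm
  rw [e, hS, inv_mul_eq_iff_eq_mul₀ (card_ne_zero_complex P)] at hm
  exact_mod_cast hm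

/-- The squared values over some classes are bounded by the order. -/
theorem sum_sq_classes_le [Fintype G] {χ : G → ℂ} (hχ : IsIrrCharacter G χ) (R : Finset G)
    (hR : ∀ a ∈ R, ∀ b ∈ R, IsConj a b → a = b) :
    ∑ g ∈ R, ((Subgroup.centralizer ({g} : Set G)).index : ℝ) * Complex.normSq (χ g) ≤
      Nat.card G := by
  classical
  rw [← CharAux.sum_normSq_irr hχ]
  have hdis : (R : Set G).PairwiseDisjoint fun g => Finset.univ.filter fun x => IsConj x g := by
    intro a ha b hb hne
    refine Finset.disjoint_left.2 fun x hxa hxb => hne (hR a ha b hb ?_)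
    exact (Finset.mem_filter.1 hxa).2.symm.trans (Finset.mem_filter.1 hxb).2
  have hsum : ∀ g ∈ R, ((Subgroup.centralizer ({g} : Set G)).index : ℝ) * Complex.normSq (χ g) =
      ∑ x ∈ Finset.univ.filter (fun x => IsConj x g), Complex.normSq (χ x) := by
    intro g _
    rw [← card_conjClass_eq_index, ← nsmul_eq_mul, ← Finset.sum_const]
    refine Finset.sum_congr rfl fun x hx => ?_
    obtain ⟨c, hc⟩ := isConj_iff.1 (Finset.mem_filter.1 hx).2
    rw [← hc, isClassFunction_of_isIrr hχ x c]
  rw [Finset.sum_congr rfl hsum, ← Finset.sum_biUnion hdis]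
  exact Finset.sum_le_sum_of_subset_of_nonneg (Finset.subset_univ _)
    fun x _ _ => Complex.normSq_nonneg _

end Cfsg.Agent.Lib.Block
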