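import Cfsg.Agent.Lib.BrauerPairs.CoveringNormalizer
import Cfsg.Agent.Lib.Block.ModP

/-! A stable block of a normal subgroup has a height zero character with stabilizer of index
prime to `p`. -/

set_option autoImplicit false

namespace Cfsg.Agent.Lib.Block

open Cfsg Cfsg.Agent.Lib
open Cfsg.Agent.Lib.BrauerPairs

universe u

variable {p : ℕ} {M : Ideal AlgInt} [M.IsPrime] {G : Type u} [Group G] [Finite G]

theorem exists_height_zero_inertia (hM : IsPModular p M) (H : Subgroup G) [hHn : H.Normal]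
    {b : Set (IrrCharacter H)} (hb : IsPBlock M b)
    (hst : ∀ (g : G), ∀ θ ∈ b, conjIrr H g θ ∈ b) :
    ∃ θ ∈ b, blockHeight p b (θ : H → ℂ) = 0 ∧
      ¬ p ∣ (Char.inertia H (θ : H → ℂ)).index := by
  classical
  haveI : Fact p.Prime := ⟨hM.1⟩
  haveI := resField_charP (M := M) hM
  haveI := Fintype.ofFinite G
  haveI := Fintype.ofFinite H
  haveI := Fintype.ofFinite (ConjClasses H)
  have hcl : gClosure H b = b := by
    refine Set.Subset.antisymm ?_ (subset_gClosure H b)
    rintro ψ ⟨g, θ, hθ, he⟩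
    rw [← show conjIrr H g θ = ψ from Subtype.ext he]
    exact hst g θ hθ
  obtain ⟨θm, hθm, hθmh⟩ := exists_height_zero hb p
  obtain ⟨S⟩ : Nonempty (Sylow p G) := inferInstance
  -- a class of `H` fixed by `S` on which the block is supported
  letI act : MulAction (S : Subgroup G) (ConjClasses H) :=
    { smul := fun s C => ConjClasses.map (MulAut.conjNormal (s : G) : H ≃* H).toMonoidHom C
      one_smul := fun C => by
        obtain ⟨c, rfl⟩ := ConjClasses.mk_surjective C
        show ConjClasses.mk (MulAut.conjNormal ((1 : (S : Subgroup G)) : G) c) = _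
        rw [Subgroup.coe_one, map_one]
        rfl
      mul_smul := fun s t C => by
        obtain ⟨c, rfl⟩ := ConjClasses.mk_surjective C
        show ConjClasses.mk (MulAut.conjNormal ((s * t : (S : Subgroup G)) : G) c) = _
        rw [Subgroup.coe_mul, map_mul]
        rfl }
  set f : ConjClasses H → ResField M := fun C =>
    redC M ((eIdem b).coeff C.out) * redC M (centralChar (θm : H → ℂ) C.out) with hf
  have hfmk : ∀ c : H, f (ConjClasses.mk c) =
      redC M ((eIdem b).coeff c) * redC M (centralChar (θm : H → ℂ) c) := by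
    intro c
    obtain ⟨y, hy⟩ := isConj_iff.1 (ConjClasses.mk_eq_mk_iff_isConj.1
      (Quotient.out_eq (ConjClasses.mk c))).symm
    have h1 : IsConj c (ConjClasses.mk c).out := isConj_iff.2 ⟨y, hy⟩
    simp only [hf]
    rw [(isClassCoeff_eIdem b).conj h1, redC_centralChar_of_isConj θm h1]
  have hfinv : ∀ (s : (S : Subgroup G)) (C : ConjClasses H), f (s • C) = f C := by
    intro s C
    obtain ⟨c, rfl⟩ := ConjClasses.mk_surjective C
    show f (ConjClasses.mk (MulAut.conjNormal (s : G) c)) = f (ConjClasses.mk c)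
    rw [hfmk, hfmk]
    congr 1
    · rw [coeff_eIdem, coeff_eIdem, ← hcl]
      congr 1
      exact blockCoeff_gClosure_conj H b (s : G) c
    · rw [← centralChar_conjChar H (Char.isClassFunction_of_isIrr θm.2) (s : G) c]
      exact (sameBlock_iff.1 (sameBlock_of_mem hb hθm (hst (s : G) θm hθm)) c).symm
  have hsum : ∑ C, f C = 1 := by
    rw [← redC_omega_eq_sum θm (isClassCoeff_eIdem b) (intR_eIdem hb), omega_eIdem, if_pos hθm,
      redC_one]
  obtain ⟨C, hCfix, hfC⟩ : ∃ C, (∀ s : (S : Subgroup G), s • C = C) ∧ f C ≠ 0 := by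
    rw [sum_eq_sum_fixed (p := p) S.isPGroup' f hfinv] at hsum
    obtain ⟨C, hC, hne⟩ := Finset.exists_ne_zero_of_sum_ne_zero (hsum ▸ one_ne_zero)
    exact ⟨C, (Finset.mem_filter.1 hC).2, hne⟩
  obtain ⟨c, rfl⟩ := ConjClasses.mk_surjective C
  rw [hfmk] at hfC
  set Cg := Subgroup.centralizer ({(c : G)} : Set G) with hCg
  have hSle : (S : Subgroup G) ≤ H ⊔ Cg := by
    intro s hs
    obtain ⟨y, hy⟩ := isConj_iff.1 (ConjClasses.mk_eq_mk_iff_isConj.1 (hCfix ⟨s, hs⟩))
    have hy' : (y : G) * (s * c * s⁻¹) * (y : G)⁻¹ = c := congrArg Subtype.val hy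
    have hmem : (y : G) * s ∈ Cg := by
      refine Subgroup.mem_centralizer_singleton_iff.2 ?_
      calc (y : G) * s * c = (y : G) * (s * c * s⁻¹) * (y : G)⁻¹ * ((y : G) * s) := by group
        _ = c * ((y : G) * s) := by rw [hy']
    have h : (y : G)⁻¹ * ((y : G) * s) ∈ H ⊔ Cg :=
      mul_mem (Subgroup.mem_sup_left (inv_mem y.2)) (Subgroup.mem_sup_right hmem)
    rwa [inv_mul_cancel_left] at h
  have hidx : ¬ p ∣ (H ⊔ Cg).index := fun h => S.not_dvd_index (h.trans (Subgroup.index_dvd_of_le hSle))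
  have hrel : Cg.index = (Subgroup.centralizer ({c} : Set H)).index * (H ⊔ Cg).index := by
    have hsup : Cg.relIndex (H ⊔ Cg) = Cg.relIndex H := by
      have h1 := Subgroup.relIndex_mul_relIndex ⊥ Cg (H ⊔ Cg) bot_le le_sup_right
      have h2 := Subgroup.relIndex_mul_relIndex ⊥ H (H ⊔ Cg) bot_le le_sup_left
      have h3 := Subgroup.relIndex_mul_relIndex ⊥ (H ⊓ Cg) Cg bot_le inf_le_right
      have h4 := Subgroup.relIndex_mul_relIndex ⊥ (H ⊓ Cg) H bot_le inf_le_left
      simp only [Subgroup.relIndex_bot_left, Subgroup.inf_relIndex_right,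
        Subgroup.inf_relIndex_left, Subgroup.relIndex_sup_left] at h1 h2 h3 h4
      have hne : H.relIndex Cg ≠ 0 := fun h => Nat.card_pos.ne' (h3.symm.trans (by rw [h, mul_zero]))
      have hne' : Nat.card (H ⊓ Cg : Subgroup G) ≠ 0 := Nat.card_pos.ne'
      refine Nat.eq_of_mul_eq_mul_left (Nat.pos_of_ne_zero (mul_ne_zero hne' hne)) ?_
      calc Nat.card (H ⊓ Cg : Subgroup G) * H.relIndex Cg * Cg.relIndex (H ⊔ Cg) =
          Nat.card H * H.relIndex Cg := by rw [h3, h1, h2]
        _ = _ := by rw [← h4]; ring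
    rw [← Subgroup.relIndex_mul_index (le_sup_right : Cg ≤ H ⊔ Cg), hsup]
    congr 1
    show (Cg.subgroupOf H).index = _
    congr 1
    ext y
    rw [Subgroup.mem_subgroupOf, hCg, Subgroup.mem_centralizer_singleton_iff,
      Subgroup.mem_centralizer_singleton_iff, ← Subgroup.coe_mul, ← Subgroup.coe_mul,
      Subtype.coe_inj]
  have hv : Cg.index.factorization p =
      (Subgroup.centralizer ({c} : Set H)).index.factorization p := by
    rw [hrel, Nat.factorization_mul Subgroup.index_ne_zero_of_finite Subgroup.index_ne_zero_of_finite,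
      Finsupp.add_apply, Nat.factorization_eq_zero_of_not_dvd hidx, add_zero]
  -- a covering block with this class in its support
  set a := fromSub H (eIdem b) with ha
  have hac : IsClassCoeff a := by
    rw [ha, ← hcl]
    exact isClassCoeff_fromSub_gClosure H b
  set z := toF M a with hz
  have hze : z = emb H (bar M b) := by
    refine alg_ext fun x => ?_
    rw [hz, coeff_toF, ha]
    by_cases hx : x ∈ H
    · rw [coeff_fromSub_of_mem H _ hx, coeff_emb_of_mem _ _ hx, coeff_bar, coeff_eIdem]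
    · rw [coeff_fromSub_of_not_mem H _ hx, coeff_emb_of_not_mem _ _ hx, redC_zero]
  have hzi : IsIdempotentElem z := by
    rw [IsIdempotentElem, hze, ← map_mul, (isIdempotentElem_bar hb).eq]
  obtain ⟨B, hB, hBc⟩ : ∃ B, B ∈ (blocks M G).filter (fun B => bar M B * z = bar M B) ∧
      (bar M B).coeff (c : G) ≠ 0 := by
    by_contra hcon
    push Not at hcon
    have h1 : z.coeff (c : G) = 0 := by
      rw [eq_sum_blocks (show IsClassCoeff z from isClassCoeff_toF hac) hzi, coeff_sum_apply]
      exact Finset.sum_eq_zero hcon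
    rw [hz, coeff_toF, ha, coeff_fromSub_of_mem H _ c.2] at h1
    exact hfC (by rw [h1, zero_mul])
  obtain ⟨hBmem, hBz⟩ := Finset.mem_filter.1 hB
  have hBb := mem_blocks.1 hBmem
  rw [coeff_bar] at hBc
  obtain ⟨χ₁, hχ₁, θ₁, hθ₁, hcov⟩ := (covers_iff H hM hBb hb).2 (by
    rw [← hze, hBz]
    exact bar_ne_zero hBb)
  obtain ⟨χ₀, hχ₀, hχ₀h⟩ := exists_height_zero hBb p
  obtain ⟨θ₀, hθ₀⟩ := exists_constituent_restrict H χ₀
  have hθ₀b : θ₀ ∈ b :=
    hcl ▸ mem_gClosure_of_sameBlock H hb (sameBlock_of_mem hBb hχ₁ hχ₀) hθ₁ hcov hθ₀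
  obtain ⟨e, he⟩ := Char.classInner_natCast
    (Char.isCharacter_restrict (Char.isCharacter_of_isIrr χ₀.2) H) (Char.isCharacter_of_isIrr θ₀.2)
  have hdeg : charDegree (χ₀ : G → ℂ) =
      e * (Char.inertia H (θ₀ : H → ℂ)).index * charDegree (θ₀ : H → ℂ) := by
    have h := Char.clifford_degree H χ₀.2 θ₀.2 hθ₀
    rw [he, irr_one_eq_natCast, irr_one_eq_natCast] at h
    exact_mod_cast h
  have he0 : e ≠ 0 := fun h => hθ₀ (by rw [he, h, Nat.cast_zero])
  have hvdeg : (charDegree (χ₀ : G → ℂ)).factorization p = e.factorization p +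
      (Char.inertia H (θ₀ : H → ℂ)).index.factorization p +
      (charDegree (θ₀ : H → ℂ)).factorization p := by
    rw [hdeg, Nat.factorization_mul (mul_ne_zero he0 Subgroup.index_ne_zero_of_finite)
      (charDegree_pos θ₀).ne', Nat.factorization_mul he0 Subgroup.index_ne_zero_of_finite]
    simp
  have h1 : (charDegree (χ₀ : G → ℂ)).factorization p ≤ Cg.index.factorization p := by
    have hle := factorization_le_blockDefect_of_support hM hBb hBc
    rw [blockDefect_eq_of_min hχ₀ hχ₀h] at hle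
    have h2 := factorization_card_eq (c : G) p
    have h3 := factorization_charDegree_le χ₀ p
    rw [← hCg] at hle h2
    omega
  have h2 : (Subgroup.centralizer ({c} : Set H)).index.factorization p ≤
      (charDegree (θm : H → ℂ)).factorization p :=
    index_le_deg_of_redC_ne_zero hM θm (right_ne_zero_of_mul hfC)
  have h3 := le_of_height_zero hθmh hθ₀b
  have h4 : sInf ((fun ψ : IrrCharacter H => (charDegree (ψ : H → ℂ)).factorization p) '' b) =
      (charDegree (θm : H → ℂ)).factorization p :=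
    le_antisymm (Nat.sInf_le ⟨θm, hθm, rfl⟩) (Nat.sub_eq_zero_iff_le.1 hθmh)
  refine ⟨θ₀, hθ₀b, ?_, fun hd => ?_⟩
  · rw [blockHeight, h4]
    omega
  · have h5 := hM.1.factorization_pos_of_dvd Subgroup.index_ne_zero_of_finite hd
    omega

end Cfsg.Agent.Lib.Block
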